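import Cfsg.Agent.GeoLow.SympFourC6.Mono

/-!
When every triple of involutions is monomial, every vector of the orbit is an axis.
-/

set_option autoImplicit false

namespace Cfsg.Agent.GeoLow.C6

open Matrix Cfsg.Agent.Elusive25
open scoped MatrixGroups

variable {F : Type*} [Field F]

lemma exists_others : ∀ k l : Fin 5, k ≠ l →
    ∃ i j : Fin 5, i ≠ j ∧ i ≠ k ∧ i ≠ l ∧ j ≠ k ∧ j ≠ l := by
  decide +kernel

lemma dot_five (v w : Fin 5 → F) :
    dot v w = v 0 * w 0 + v 1 * w 1 + v 2 * w 2 + v 3 * w 3 + v 4 * w 4 := by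
  simp [dot, Fin.sum_univ_five]

lemma dot_smul_ax (v : Fin 5 → F) (s : F) (i : Fin 5) : dot v (s • ax i) = s * v i := by
  simp [dot, ax, Pi.single_apply]
  ring

namespace MonoAll

variable {Γ : Fin 5 → M4 F} {M : Subgroup (GL (Fin 2 ⊕ Fin 2) F)} (hA : MonoAll Γ M)
include hA

/-- With two zero coordinates, an orbit vector has at most two others. -/
lemma two_zero₀ {v : Fin 5 → F} (hv : InOrbit Γ M v) (h3 : v 3 = 0) (h4 : v 4 = 0) (h0 : v 0 ≠ 0)
    (h1 : v 1 ≠ 0) : v 2 = 0 ∧ 2 * (v 0 * v 0) = 1 := by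
  obtain ⟨h, hh, -, he⟩ := hA.hyp.act_orbit hv
  have h2 := hA.hyp.frame.two
  obtain ⟨i, hi⟩ := hA.all_axis hh (fun x x3 x4 => by simp [he, h3, h4, x3, x4]) 0
  rw [he, dot_ax] at hi
  simp only [Pi.sub_apply, Pi.smul_apply, smul_eq_mul] at hi
  have e : ∀ l, l ≠ 1 → (2 * v 0) * v l - (ax 0 : Fin 5 → F) l = 0 := by
    intro l hl
    refine hi l fun hli => ?_
    subst hli
    have := hi 1 (Ne.symm hl)
    rw [ax_ne (show (1 : Fin 5) ≠ 0 by decide), sub_zero] at this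
    exact mul_ne_zero (mul_ne_zero h2 h0) h1 this
  refine ⟨?_, ?_⟩
  · have := e 2 (by decide)
    rw [ax_ne (show (2 : Fin 5) ≠ 0 by decide), sub_zero] at this
    exact (mul_eq_zero.1 this).resolve_left (mul_ne_zero h2 h0)
  · have := e 0 (by decide)
    simp only [ax, Pi.single_eq_same] at this
    linear_combination this

lemma two_zero {v : Fin 5 → F} (hv : InOrbit Γ M v) {i j k l : Fin 5} (hij : i ≠ j) (hkl : k ≠ l)
    (hk : v k = 0) (hl : v l = 0) (hi : v i ≠ 0) (hj : v j ≠ 0) :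
    (∀ m, m ≠ i → m ≠ j → v m = 0) ∧ 2 * (v i * v i) = 1 := by
  obtain ⟨π, rfl, rfl, rfl, rfl⟩ := exists_five i j k l hij (fun e => hi (e ▸ hk))
    (fun e => hi (e ▸ hl)) (fun e => hj (e ▸ hk)) (fun e => hj (e ▸ hl)) hkl
  obtain ⟨h2, hsq⟩ := (hA.reindex π).two_zero₀ (inOrbit_comp π hv) hk hl hi hj
  refine ⟨fun m hm0 hm1 => ?_, hsq⟩
  obtain ⟨n, rfl⟩ := π.surjective m
  fin_cases n
  exacts [(hm0 rfl).elim, (hm1 rfl).elim, h2, hk, hl]

/-- The involution in the group generated by a sign change and a reflection gives equal squares. -/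
lemma pair_key [Finite F] {v : Fin 5 → F} (hv : InOrbit Γ M v) (h0 : v 0 ≠ 0) (h1 : v 1 ≠ 0)
    (h3 : v 3 ≠ 0) (h4 : v 4 ≠ 0) :
    v 3 * v 3 = v 4 * v 4 ∨ (v 2 = 0 ∧ v 0 * v 0 = v 1 * v 1) := by
  have hH := hA.hyp
  have hΓ := hH.frame
  have h2 := hΓ.two
  obtain ⟨t', ht', -, hte⟩ := hH.flip_val (show (3 : Fin 5) ≠ 4 by decide)
  obtain ⟨h', hh', hhv, hhe⟩ := hH.act_orbit hv
  have hvv := hH.orbit_norm hv
  obtain ⟨h, rfl⟩ : ∃ h : M, (h : GL (Fin 2 ⊕ Fin 2) F) = h' := ⟨⟨h', hh'⟩, rfl⟩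
  obtain ⟨t, rfl⟩ : ∃ t : M, (t : GL (Fin 2 ⊕ Fin 2) F) = t' := ⟨⟨t', ht'⟩, rfl⟩
  obtain ⟨H, hH'⟩ : ∃ H, H = rho hA.hyp h := ⟨_, rfl⟩
  obtain ⟨T, hT'⟩ : ∃ T, T = rho hA.hyp t := ⟨_, rfl⟩
  have hHv : ∀ x, H x = (2 * dot v x) • v - x := fun x => by rw [hH', rho_apply, hhe]
  have hTv : ∀ x l, T x l = if l = 3 ∨ l = 4 then -x l else x l := fun x l => by
    rw [hT', rho_apply, hte]
  have HH : H * H = 1 := Equiv.ext fun x => by
    rw [Equiv.Perm.mul_apply, hHv, hHv, Equiv.Perm.one_apply]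
    funext l
    have e : dot v ((2 * dot v x) • v - x) = (2 * dot v x) * dot v v - dot v x := by
      simp only [dot_five, Pi.sub_apply, Pi.smul_apply, smul_eq_mul]; ring
    simp only [Pi.sub_apply, Pi.smul_apply, smul_eq_mul, e, hvv]
    ring
  have TT : T * T = 1 := Equiv.ext fun x => by
    funext l
    rw [Equiv.Perm.mul_apply, hTv, hTv, Equiv.Perm.one_apply]
    split_ifs <;> simp
  have Hi : H⁻¹ = H := inv_eq_of_mul_eq_one_right HH
  have Ti : T⁻¹ = T := inv_eq_of_mul_eq_one_right TT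
  have hR : rho hA.hyp (t * h) = T * H := by rw [map_mul, hT', hH']
  obtain ⟨n, hn⟩ : ∃ n, n = orderOf (T * H) := ⟨_, rfl⟩
  have hn0 : 0 < n := hn ▸ orderOf_pos _
  have hnn : (T * H) ^ n = 1 := hn ▸ pow_orderOf_eq_one _
  have conjH : ∀ j : ℕ, H * (T * H) ^ j = ((T * H) ^ j)⁻¹ * H := by
    intro j
    have : H * (T * H) ^ j * H⁻¹ = ((T * H) ^ j)⁻¹ := by
      rw [← conj_pow, Hi, show H * (T * H) * H = H * T * (H * H) by group, HH, mul_one, ← inv_pow,
        _root_.mul_inv_rev, Hi, Ti]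
    rw [← this, inv_mul_cancel_right]
  rcases Nat.even_or_odd' n with ⟨j, rfl | rfl⟩
  swap
  · exfalso
    have hg : ((t * h : M) ^ j)⁻¹ ∈ (⊤ : Subgroup M) := Subgroup.mem_top _
    obtain ⟨g, hge⟩ : ∃ g : M, g = ((t * h : M) ^ j)⁻¹ := ⟨_, rfl⟩
    have hρ : rho hA.hyp (g * h * g⁻¹) = T := by
      rw [map_mul, map_mul, map_inv, hge, map_inv, map_pow, hR, ← hH', inv_inv, mul_assoc, conjH,
        ← mul_assoc, ← _root_.mul_inv_rev, ← pow_add]
      have e : ((T * H) ^ (j + j))⁻¹ = T * H := by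
        refine inv_eq_of_mul_eq_one_right ?_
        rw [← pow_succ, show j + j + 1 = 2 * j + 1 by omega, hnn]
      rw [e, mul_assoc, HH, mul_one]
    obtain ⟨u, hu⟩ : ∃ u, u = act Γ (g : GL (Fin 2 ⊕ Fin 2) F) v := ⟨_, rfl⟩
    have huu : dot u u = 1 := by rw [hu, hΓ.dot_act (hH.le g.2), hvv]
    have hval : ((g * h * g⁻¹ : M) : GL (Fin 2 ⊕ Fin 2) F).val = vec Γ u := by
      rw [hu, hΓ.vec_act (hH.le g.2), ← hhv]
      simp
    have hA' : ∀ x, (2 * dot u x) • u - x = T x := fun x => by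
      rw [← hΓ.act_vec hval huu, ← hρ, rho_apply]
    have e00 := congrFun (hA' (ax 0)) 0
    have e01 := congrFun (hA' (ax 0)) 1
    have e11 := congrFun (hA' (ax 1)) 1
    simp only [hTv, dot_ax, Pi.sub_apply, Pi.smul_apply, smul_eq_mul] at e00 e01 e11
    simp [ax] at e00 e01 e11
    have hu0 : u 0 ≠ 0 := fun e => h2 (by rw [e] at e00; linear_combination -e00)
    rcases e01 with (e | e) | e
    · exact h2 e
    · exact hu0 e
    · exact h2 (by rw [e] at e11; linear_combination -e11)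
  obtain ⟨z, hz⟩ : ∃ z : M, z = (t * h) ^ j := ⟨_, rfl⟩
  have hzρ : rho hA.hyp z = (T * H) ^ j := by rw [hz, map_pow, hR]
  obtain ⟨c, hc⟩ : ∃ c, c = ((z : M) : GL (Fin 2 ⊕ Fin 2) F) := ⟨_, rfl⟩
  have hcM : c ∈ M := hc ▸ z.2
  have hcρ : ∀ x, act Γ c x = ((T * H) ^ j) x := fun x => by rw [hc, ← rho_apply hA.hyp, hzρ]
  have hne : (T * H) ^ j ≠ 1 := fun e => by
    have hj : j ≠ 0 := by omega
    have := Nat.le_of_dvd (by omega) (orderOf_dvd_of_pow_eq_one e)
    omega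
  have zz : (T * H) ^ j * (T * H) ^ j = 1 := by rw [← pow_add, ← two_mul, hnn]
  have zi : ((T * H) ^ j)⁻¹ = (T * H) ^ j := inv_eq_of_mul_eq_one_right zz
  have zH : ∀ x, H (act Γ c x) = act Γ c (H x) := fun x => by
    rw [hcρ, hcρ, ← Equiv.Perm.mul_apply, conjH, zi, Equiv.Perm.mul_apply]
  have zT : ∀ x, T (act Γ c x) = act Γ c (T x) := fun x => by
    rw [hcρ, hcρ, ← Equiv.Perm.mul_apply, ← Equiv.Perm.mul_apply]
    refine Equiv.Perm.ext_iff.1 ?_ x
    calc T * (T * H) ^ j = T * H * (H * (T * H) ^ j) := by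
          rw [← mul_assoc, mul_assoc T H H, HH, mul_one]
      _ = T * H * (T * H) ^ j * H := by rw [conjH, zi, ← mul_assoc]
      _ = (T * H) ^ j * (T * H) * H := by rw [(Commute.self_pow (T * H) j).eq]
      _ = (T * H) ^ j * T := by rw [mul_assoc, mul_assoc T H H, HH, mul_one]
  have hW : ∀ x : Fin 5 → F, x 3 = 0 → x 4 = 0 → act Γ c x 3 = 0 ∧ act Γ c x 4 = 0 := by
    intro x x3 x4
    have hTx : T x = x := by
      funext l
      rw [hTv]
      split_ifs with hl
      · rcases hl with rfl | rfl <;> simp [x3, x4]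
      · rfl
    have key : ∀ l, l = 3 ∨ l = 4 → act Γ c x l = 0 := fun l hl => by
      have e := congrFun (zT x) l
      rw [hTx, hTv, if_pos hl] at e
      exact (mul_eq_zero.1 (show (2 : F) * act Γ c x l = 0 by linear_combination -e)).resolve_left h2
    exact ⟨key 3 (Or.inl rfl), key 4 (Or.inr rfl)⟩
  have img : ∀ i, ∃ m, ∃ s : F, (s = 1 ∨ s = -1) ∧ act Γ c (ax i) = s • ax m ∧
      ∀ x, s * act Γ c x m = x i := fun i => by
    obtain ⟨m, s, hs, he⟩ := axis_eq (hA.all_axis hcM hW i)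
      (by rw [hΓ.dot_act (hH.le hcM), dot_ax_ax])
    refine ⟨m, s, hs, he, fun x => ?_⟩
    rw [← dot_smul_ax, ← he, hΓ.dot_act (hH.le hcM), dot_ax]
  -- powers on the two eigenspaces
  have fixf : ∀ f : Fin 5 → F, T (H f) = f → ∀ k : ℕ, ((T * H) ^ k) f = f := fun f hf k => by
    induction k with
    | zero => simp
    | succ k ih => rw [pow_succ, Equiv.Perm.mul_apply, Equiv.Perm.mul_apply, hf, ih]
  have negw : ∀ w : Fin 5 → F, w 3 = 0 → w 4 = 0 → dot v w = 0 →
      ∀ k : ℕ, ((T * H) ^ k) w = (-1 : F) ^ k • w := by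
    intro w w3 w4 hvw k
    induction k with
    | zero => simp
    | succ k ih =>
      have hlin : ∀ y, ((T * H) ^ k) (-y) = -((T * H) ^ k) y := fun y => by
        rw [← hR, ← map_pow, rho_apply, rho_apply, Frame.act_neg]
      have hTw : T (H w) = -w := by
        funext l
        rw [hTv, hHv, hvw]
        split_ifs with hl
        · rcases hl with rfl | rfl <;> simp [w3, w4]
        · simp
      rw [pow_succ, Equiv.Perm.mul_apply, Equiv.Perm.mul_apply, hTw, hlin, ih, pow_succ, mul_neg_one,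
        neg_smul]
  obtain ⟨δ, hδ⟩ : ∃ δ : F, δ = (-1) ^ j := ⟨_, rfl⟩
  obtain ⟨f, hf⟩ : ∃ f : Fin 5 → F, f = ![0, 0, 0, -v 4, v 3] := ⟨_, rfl⟩
  have hcf : act Γ c f = f := by
    rw [hcρ]
    refine fixf f ?_ j
    funext l
    rw [hTv, hHv, show dot v f = 0 by simp [hf, dot_five]; ring]
    fin_cases l <;> simp [hf]
  obtain ⟨w₁, hw₁⟩ : ∃ w : Fin 5 → F, w = ![v 1, -v 0, 0, 0, 0] := ⟨_, rfl⟩
  obtain ⟨w₂, hw₂⟩ : ∃ w : Fin 5 → F, w = ![v 2, 0, -v 0, 0, 0] := ⟨_, rfl⟩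
  have hcw₁ : act Γ c w₁ = δ • w₁ := by
    rw [hcρ, hδ]
    exact negw _ (by simp [hw₁]) (by simp [hw₁]) (by simp [hw₁, dot_five]; ring) j
  have hcw₂ : act Γ c w₂ = δ • w₂ := by
    rw [hcρ, hδ]
    exact negw _ (by simp [hw₂]) (by simp [hw₂]) (by simp [hw₂, dot_five]; ring) j
  -- the last two axes
  obtain ⟨m, s, hs, hse, hsd⟩ := img 3
  have e3 := hsd f
  rw [hcf] at e3
  obtain ⟨m', s', hs', hse', hsd'⟩ := img 4
  have e4 := hsd' f
  rw [hcf] at e4
  have c3 : act Γ c (ax 3) = ax 3 ∨ v 3 * v 3 = v 4 * v 4 := by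
    fin_cases m <;> simp [hf] at e3 hse
    · exact absurd e3 h4
    · exact absurd e3 h4
    · exact absurd e3 h4
    · left; rw [hse, mul_right_cancel₀ h4 (e3.trans (one_mul _).symm), one_smul]
    · right
      have hs2 : s * s = 1 := mul_self_eq_one_iff.2 hs
      linear_combination (s * v 3 - v 4) * e3 - v 3 * v 3 * hs2
  have c4 : act Γ c (ax 4) = ax 4 ∨ v 3 * v 3 = v 4 * v 4 := by
    fin_cases m' <;> simp [hf] at e4 hse'
    · exact absurd e4.symm h3
    · exact absurd e4.symm h3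
    · exact absurd e4.symm h3
    · right
      have hs2 : s' * s' = 1 := mul_self_eq_one_iff.2 hs'
      linear_combination (s' * v 4 - v 3) * e4 + v 4 * v 4 * hs2
    · left; rw [hse', mul_right_cancel₀ h3 (e4.trans (one_mul _).symm), one_smul]
  rcases c3 with c3 | c3
  swap
  · exact Or.inl c3
  rcases c4 with c4 | c4
  swap
  · exact Or.inl c4
  -- the vector itself is fixed
  have hcv : act Γ c v = v := by
    obtain ⟨y, hy⟩ : ∃ y, y = act Γ c v := ⟨_, rfl⟩
    have hy3 : y 3 = v 3 := by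
      rw [hy, ← dot_ax (act Γ c v) 3]
      conv_lhs => rw [← c3]
      rw [hΓ.dot_act (hH.le hcM), dot_ax]
    have hHy : H y = y := by
      rw [hy, zH]
      congr 1
      funext l
      rw [hHv, hvv]
      simp
      ring
    have hyl : ∀ l, y l = dot v y * v l := fun l => by
      have e := congrFun hHy l
      rw [hHv] at e
      simp at e
      exact mul_left_cancel₀ h2 (by linear_combination -e)
    have hη : dot v y = 1 := mul_right_cancel₀ h3 (by rw [one_mul, ← hyl 3, hy3])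
    rw [← hy]
    funext l
    rw [hyl, hη, one_mul]
  obtain ⟨m₀, s₀, hs₀, he₀, hd₀⟩ := img 0
  have a1 := hd₀ w₁
  have a2 := hd₀ w₂
  have a0 := hd₀ v
  rw [hcw₁] at a1
  rw [hcw₂] at a2
  rw [hcv] at a0
  fin_cases m₀ <;> simp [hw₁, hw₂] at a0 a1 a2 he₀
  · -- the identity
    exfalso
    have hs1 : s₀ = 1 := mul_right_cancel₀ h0 (by rw [a0, one_mul])
    subst hs1
    have hδ1 : δ = 1 := mul_right_cancel₀ h1 (by linear_combination a1)
    subst hδ1
    rw [one_smul] at he₀ hcw₁ hcw₂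
    have c1 : act Γ c (ax 1) = ax 1 := by
      have e : (ax 1 : Fin 5 → F) = (v 0)⁻¹ • (v 1 • ax 0 + (-1 : F) • w₁) := by
        funext l
        simp only [Pi.smul_apply, Pi.add_apply, smul_eq_mul]
        fin_cases l <;> simp [hw₁, ax, h0]
      rw [e, Frame.act_smul, Frame.act_add, Frame.act_smul, Frame.act_smul, he₀, hcw₁]
    have c2 : act Γ c (ax 2) = ax 2 := by
      have e : (ax 2 : Fin 5 → F) = (v 0)⁻¹ • (v 2 • ax 0 + (-1 : F) • w₂) := by
        funext l
        simp only [Pi.smul_apply, Pi.add_apply, smul_eq_mul]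
        fin_cases l <;> simp [hw₂, ax, h0]
      rw [e, Frame.act_smul, Frame.act_add, Frame.act_smul, Frame.act_smul, he₀, hcw₂]
    have hall : ∀ i, act Γ c (ax i) = ax i := fun i => by
      fin_cases i
      exacts [he₀, c1, c2, c3, c4]
    refine hne (Equiv.ext fun x => ?_)
    rw [← hcρ, Hyp.act_expand c x, Finset.sum_congr rfl fun i _ => by rw [hall i], Hyp.sum_ax]
    rfl
  · refine Or.inr ⟨?_, ?_⟩
    · simpa [eq_comm] using a2
    · rcases hs₀ with rfl | rfl <;> simp at a0 <;> rw [← a0] <;> ring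
  all_goals exact absurd a1.symm h1

/-- No orbit vector has all five coordinates non-zero. -/
lemma not_five [Finite F] {v : Fin 5 → F} (hv : InOrbit Γ M v) : ∃ i, v i = 0 := by
  by_contra h
  push Not at h
  have sq : ∀ w : Fin 5 → F, InOrbit Γ M w → (∀ i, w i ≠ 0) →
      ∀ k l : Fin 5, w k * w k = w l * w l := by
    intro w hw hw0 k l
    rcases eq_or_ne k l with rfl | hkl
    · rfl
    obtain ⟨i, j, hij, hik, hil, hjk, hjl⟩ := exists_others k l hkl
    obtain ⟨π, rfl, rfl, rfl, rfl⟩ := exists_five i j k l hij hik hil hjk hjl hkl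
    exact ((hA.reindex π).pair_key (inOrbit_comp π hw) (hw0 _) (hw0 _) (hw0 _) (hw0 _)).resolve_right
      fun e => hw0 _ e.1
  have h2 := hA.hyp.frame.two
  obtain ⟨g, hg, -, hge⟩ := hA.hyp.act_orbit hv
  have hw := hA.hyp.orbit_act hg (hA.hyp.orbit_ax 0)
  rw [hge, dot_ax] at hw
  have hn := hA.hyp.orbit_norm hv
  rw [dot_five, sq v hv h 1 0, sq v hv h 2 0, sq v hv h 3 0, sq v hv h 4 0] at hn
  by_cases hx : 2 * v 0 * v 0 - 1 = 0
  · exact hA.three ((mul_eq_zero.1 (show (3 : F) * (v 0 * v 0) = 0 by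
      linear_combination hn - hx)).resolve_right (mul_ne_zero (h 0) (h 0)))
  · have e := sq _ hw (fun i => by
      rcases eq_or_ne i 0 with rfl | hi
      · simpa [ax] using hx
      · simpa [ax_ne hi] using mul_ne_zero (mul_ne_zero h2 (h 0)) (h i)) 0 1
    simp [ax] at e
    exact mul_ne_zero (h 0) (h 0) (by linear_combination hn + (e -
      4 * (v 0 * v 0) * sq v hv h 1 0 * (-1)) - 0)

/-- Four non-zero coordinates with three equal squares have all squares equal to a quarter. -/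
lemma three_equal [Finite F] {v : Fin 5 → F} (hv : InOrbit Γ M v) (h4 : v 4 = 0)
    (h : ∀ i, i ≠ 4 → v i ≠ 0) (e1 : v 1 * v 1 = v 0 * v 0) (e2 : v 2 * v 2 = v 0 * v 0) :
    4 * (v 0 * v 0) = 1 ∧ v 3 * v 3 = v 0 * v 0 := by
  have h2 := hA.hyp.frame.two
  have hn := hA.hyp.orbit_norm hv
  rw [dot_five, h4, e1, e2] at hn
  obtain ⟨g, hg, -, hge⟩ := hA.hyp.act_orbit hv
  have hw := hA.hyp.orbit_act hg (hA.hyp.orbit_ax 0)
  rw [hge, dot_ax] at hw
  obtain ⟨w, hwe⟩ : ∃ w, w = (2 * v 0) • v - ax 0 := ⟨_, rfl⟩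
  rw [← hwe] at hw
  have w0 : w 0 = 2 * v 0 * v 0 - 1 := by simp [hwe, ax]
  have wi : ∀ i, i ≠ 0 → w i = 2 * v 0 * v i := fun i hi => by simp [hwe, ax_ne hi]
  have wne : ∀ i, i ≠ 0 → i ≠ 4 → w i ≠ 0 := fun i hi hi' => by
    rw [wi i hi]; exact mul_ne_zero (mul_ne_zero h2 (h 0 (by decide))) (h i hi')
  have w4 : w 4 = 0 := by rw [wi 4 (by decide), h4, mul_zero]
  by_cases hx : w 0 = 0
  · exact absurd ((hA.two_zero hw (show (1 : Fin 5) ≠ 2 by decide) (show (0 : Fin 5) ≠ 4 by decide)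
      hx w4 (wne 1 (by decide) (by decide)) (wne 2 (by decide) (by decide))).1 3 (by decide)
      (by decide)) (wne 3 (by decide) (by decide))
  obtain ⟨π, hπ0, hπ1, hπ3, hπ4⟩ := exists_five 0 1 2 3 (by decide) (by decide) (by decide)
    (by decide) (by decide) (by decide)
  have key := (hA.reindex π).pair_key (inOrbit_comp π hw) (by simpa [hπ0] using hx)
    (by simpa [hπ1] using wne 1 (by decide) (by decide))
    (by simpa [hπ3] using wne 2 (by decide) (by decide))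
    (by simpa [hπ4] using wne 3 (by decide) (by decide))
  simp only [Function.comp_apply, hπ0, hπ1, hπ3, hπ4, w0, wi 1 (by decide), wi 2 (by decide),
    wi 3 (by decide)] at key
  rcases key with e | ⟨-, e⟩
  · have e' : v 3 * v 3 = v 0 * v 0 := mul_left_cancel₀
      (mul_ne_zero (mul_ne_zero (mul_ne_zero h2 h2) (h 0 (by decide))) (h 0 (by decide)))
      (by linear_combination -e + 4 * (v 0 * v 0) * e2)
    exact ⟨by linear_combination hn - e', e'⟩
  · have e' : 4 * (v 0 * v 0) = 1 := by linear_combination -e - 4 * (v 0 * v 0) * e1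
    exact ⟨e', by linear_combination hn - e'⟩

/-- Exactly one zero coordinate forces all other squares to be a quarter. -/
lemma four_squares [Finite F] {v : Fin 5 → F} (hv : InOrbit Γ M v) (h4 : v 4 = 0)
    (h : ∀ i, i ≠ 4 → v i ≠ 0) : ∀ i, i ≠ 4 → 4 * (v i * v i) = 1 := by
  have part : ∀ π : Equiv.Perm (Fin 5), π 2 = 4 → v (π 3) * v (π 3) = v (π 4) * v (π 4) ∨
      v (π 0) * v (π 0) = v (π 1) * v (π 1) := fun π hπ => by
    have hne : ∀ k, k ≠ 2 → v (π k) ≠ 0 := fun k hk => h _ fun e => hk (π.injective (e.trans hπ.symm))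
    exact ((hA.reindex π).pair_key (inOrbit_comp π hv) (hne 0 (by decide)) (hne 1 (by decide))
      (hne 3 (by decide)) (hne 4 (by decide))).imp id And.right
  have tri : ∀ π : Equiv.Perm (Fin 5), π 4 = 4 → v (π 1) * v (π 1) = v (π 0) * v (π 0) →
      v (π 2) * v (π 2) = v (π 0) * v (π 0) → ∀ i, i ≠ 4 → 4 * (v i * v i) = 1 := by
    intro π hπ e1 e2 i hi
    obtain ⟨a, b⟩ := (hA.reindex π).three_equal (inOrbit_comp π hv) (by simpa [hπ] using h4)
      (fun k hk => h _ fun e => hk (π.injective (e.trans hπ.symm))) e1 e2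
    simp only [Function.comp_apply] at a b
    obtain ⟨k, rfl⟩ := π.surjective i
    fin_cases k
    exacts [a, e1 ▸ a, e2 ▸ a, b ▸ a, (hi hπ).elim]
  obtain ⟨π, a0, a1, a3, a4⟩ := exists_five 0 1 2 3 (by decide) (by decide) (by decide)
    (by decide) (by decide) (by decide)
  obtain ⟨σ, b0, b1, b3, b4⟩ := exists_five 0 2 1 3 (by decide) (by decide) (by decide)
    (by decide) (by decide) (by decide)
  have two : ∀ (π : Equiv.Perm (Fin 5)) (a b c d : Fin 5), π 0 = a → π 1 = b → π 3 = c → π 4 = d →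
      (∀ x : Fin 5, x = a ∨ x = b ∨ x = c ∨ x = d ∨ x = 4) → π 2 = 4 := by
    intro π a b c d p0 p1 p3 p4 hx
    rcases hx (π 2) with e | e | e | e | e
    exacts [absurd (π.injective (e.trans p0.symm)) (by decide),
      absurd (π.injective (e.trans p1.symm)) (by decide),
      absurd (π.injective (e.trans p3.symm)) (by decide),
      absurd (π.injective (e.trans p4.symm)) (by decide), e]
  have P := part π (two π _ _ _ _ a0 a1 a3 a4 (by decide))
  have Q := part σ (two σ _ _ _ _ b0 b1 b3 b4 (by decide))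
  simp only [a0, a1, a3, a4] at P
  simp only [b0, b1, b3, b4] at Q
  rcases P with P | P <;> rcases Q with Q | Q
  · -- squares of 1, 2, 3
    obtain ⟨τ, t0, t1, t3, t4⟩ := exists_five 3 2 0 4 (by decide) (by decide) (by decide)
      (by decide) (by decide) (by decide)
    have t2 : τ 2 = 1 := by
      revert τ; decide +kernel
    exact tri τ t4 (by rw [t0, t1, P]) (by rw [t0, t2, Q])
  · obtain ⟨τ, t0, t1, t3, t4⟩ := exists_five 2 3 1 4 (by decide) (by decide) (by decide)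
      (by decide) (by decide) (by decide)
    have t2 : τ 2 = 0 := by
      revert τ; decide +kernel
    exact tri τ t4 (by rw [t0, t1, P]) (by rw [t0, t2, Q])
  · obtain ⟨τ, t0, t1, t3, t4⟩ := exists_five 1 0 2 4 (by decide) (by decide) (by decide)
      (by decide) (by decide) (by decide)
    have t2 : τ 2 = 3 := by
      revert τ; decide +kernel
    exact tri τ t4 (by rw [t0, t1, P]) (by rw [t0, t2, Q])
  · obtain ⟨τ, t0, t1, t3, t4⟩ := exists_five 0 1 3 4 (by decide) (by decide) (by decide)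
      (by decide) (by decide) (by decide)
    have t2 : τ 2 = 2 := by
      revert τ; decide +kernel
    exact tri τ t4 (by rw [t0, t1, P]) (by rw [t0, t2, Q])

/-- No orbit vector has exactly one zero coordinate. -/
lemma not_four [Finite F] {v : Fin 5 → F} (hv : InOrbit Γ M v) (h4 : v 4 = 0) :
    ∃ i, i ≠ 4 ∧ v i = 0 := by
  by_contra hcon
  push Not at hcon
  have hq := hA.four_squares hv h4 hcon
  have h2 := hA.hyp.frame.two
  obtain ⟨g, hg, hge⟩ := hA.hyp.perm_act (π := Equiv.swap (0 : Fin 5) 4 * Equiv.swap 1 2)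
    (Equiv.Perm.mem_alternatingGroup.2 (by decide +kernel))
  obtain ⟨γ, hγ, hγe⟩ := hA.hyp.flip (show (1 : Fin 5) ≠ 2 by decide)
  have u0 := hge v 4
  have u1 := hge v 2
  have u2 := hge v 1
  have u3 := hge v 3
  have u4 := hge v 0
  simp [Equiv.Perm.mul_apply, Equiv.swap_apply_def] at u0 u1 u2 u3 u4
  obtain ⟨u, hu, e0, e1, e2, e3, e4⟩ : ∃ u, InOrbit Γ M u ∧ u 0 = 0 ∧ u 1 = v 1 ∧ u 2 = v 2 ∧
      u 3 = v 3 ∧ u 4 = v 0 := by
    have hsq : v 2 * v 2 = v 1 * v 1 := by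
      have := hq 1 (by decide); have := hq 2 (by decide)
      exact mul_left_cancel₀ (mul_ne_zero h2 h2) (by linear_combination hq 2 (by decide) - hq 1 (by decide))
    rcases mul_self_eq_mul_self_iff.1 hsq with e | e
    · exact ⟨_, hA.hyp.orbit_act hg hv, by rw [u0, h4], by rw [u1, e], by rw [u2, e], u3, u4⟩
    · exact ⟨_, hA.hyp.orbit_act hγ (hA.hyp.orbit_act hg hv),
        by rw [hγe, if_neg (by decide), u0, h4], by rw [hγe, if_pos (Or.inl rfl), u1, e, neg_neg],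
        by rw [hγe, if_pos (Or.inr rfl), u2, e], by rw [hγe, if_neg (by decide), u3],
        by rw [hγe, if_neg (by decide), u4]⟩
  obtain ⟨k, hk, -, hke⟩ := hA.hyp.act_orbit hv
  obtain ⟨i, hi⟩ := hA.not_five (hA.hyp.orbit_act hk hu)
  have hd : 2 * dot v u = 3 * 2⁻¹ := by
    rw [dot_five, e0, e1, e2, e3, e4, h4]
    field_simp
    linear_combination hq 1 (by decide) + hq 2 (by decide) + hq 3 (by decide)
  rw [hke, hd] at hi
  simp only [Pi.sub_apply, Pi.smul_apply, smul_eq_mul] at hi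
  have hinv : (2 : F) * 2⁻¹ = 1 := mul_inv_cancel₀ h2
  fin_cases i <;> dsimp at hi
  · exact hcon 0 (by decide) ((mul_eq_zero.1 (show (3 : F) * v 0 = 0 by
      linear_combination 2 * hi + 2 * e0 - 3 * v 0 * hinv)).resolve_left hA.three)
  · exact hcon 1 (by decide) (by linear_combination 2 * hi + 2 * e1 - 3 * v 1 * hinv)
  · exact hcon 2 (by decide) (by linear_combination 2 * hi + 2 * e2 - 3 * v 2 * hinv)
  · exact hcon 3 (by decide) (by linear_combination 2 * hi + 2 * e3 - 3 * v 3 * hinv)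
  · exact hcon 0 (by decide) (by linear_combination -hi - e4 + 3 * 2⁻¹ * h4)

/-- An orbit vector has at most two non-zero coordinates. -/
lemma shape [Finite F] {v : Fin 5 → F} (hv : InOrbit Γ M v) :
    IsAxis v ∨ ∃ i j, i ≠ j ∧ 2 * (v i * v i) = 1 ∧ 2 * (v j * v j) = 1 ∧
      ∀ m, m ≠ i → m ≠ j → v m = 0 := by
  obtain ⟨k, hk⟩ := hA.not_five hv
  obtain ⟨l, hlk, hl⟩ : ∃ l, l ≠ k ∧ v l = 0 := by
    obtain ⟨π, hπ⟩ : ∃ π : Equiv.Perm (Fin 5), π = Equiv.swap 4 k := ⟨_, rfl⟩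
    have e4 : π 4 = k := by rw [hπ, Equiv.swap_apply_left]
    obtain ⟨i, hi, hi0⟩ := (hA.reindex π).not_four (inOrbit_comp π hv) (by simpa [e4] using hk)
    exact ⟨π i, fun e => hi (π.injective (e.trans e4.symm)), hi0⟩
  by_cases hax : IsAxis v
  · exact Or.inl hax
  obtain ⟨i, hi⟩ : ∃ i, v i ≠ 0 := by
    by_contra h; push Not at h; exact hax ⟨0, fun j _ => h j⟩
  obtain ⟨j, hji, hj⟩ : ∃ j, j ≠ i ∧ v j ≠ 0 := by
    by_contra h; push Not at h; exact hax ⟨i, h⟩
  obtain ⟨hz, hsq⟩ := hA.two_zero hv (Ne.symm hji) (Ne.symm hlk) hk hl hi hj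
  exact Or.inr ⟨i, j, Ne.symm hji, hsq, (hA.two_zero hv hji (Ne.symm hlk) hk hl hj hi).2, hz⟩

/-- Every orbit vector is an axis. -/
theorem orbit_axis [Finite F] {v : Fin 5 → F} (hv : InOrbit Γ M v) : IsAxis v := by
  by_contra hax
  obtain ⟨i, j, hij, hi, hj, hz⟩ := (hA.shape hv).resolve_left hax
  have h2 := hA.hyp.frame.two
  obtain ⟨k, l, hkl, hki, hkj, hli, hlj⟩ := exists_others i j hij
  have hpi : Equiv.swap j k * Equiv.swap k l ∈ alternatingGroup (Fin 5) := by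
    rw [Equiv.Perm.mem_alternatingGroup, map_mul, Equiv.Perm.sign_swap (Ne.symm hkj),
      Equiv.Perm.sign_swap hkl]
    rfl
  obtain ⟨g, hg, hge⟩ := hA.hyp.perm_act hpi
  obtain ⟨u, hu⟩ : ∃ u, u = act Γ g v := ⟨_, rfl⟩
  have hui : u i = v i := by
    have := hge v i
    rwa [Equiv.Perm.mul_apply, Equiv.swap_apply_of_ne_of_ne (Ne.symm hki) (Ne.symm hli),
      Equiv.swap_apply_of_ne_of_ne hij (Ne.symm hki), ← hu] at this
  have huj : u j = 0 := by
    have := hge v l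
    rwa [Equiv.Perm.mul_apply, Equiv.swap_apply_right, Equiv.swap_apply_right, hz l hli hlj, ← hu]
      at this
  have hd : 2 * dot u v = 1 := by
    rw [dot, Finset.sum_eq_single i ?_ (by simp), hui, hi]
    intro m _ hm
    rcases eq_or_ne m j with rfl | hmj
    · rw [huj, zero_mul]
    · rw [hz m hm hmj, mul_zero]
  obtain ⟨g₀, hg₀, n, hn⟩ := hv
  obtain ⟨w, hw⟩ : ∃ w, w = act Γ g₀⁻¹ u := ⟨_, rfl⟩
  have hwO : InOrbit Γ M w :=
    hw ▸ hA.hyp.orbit_act (inv_mem hg₀) (hu ▸ hA.hyp.orbit_act hg ⟨g₀, hg₀, n, hn⟩)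
  have hwn : 2 * w n = 1 := by
    rw [← dot_ax w n, ← hA.hyp.frame.dot_act (hA.hyp.le hg₀), hn, hw,
      hA.hyp.frame.act_cancel_inv (hA.hyp.le hg₀), hd]
  have hwn0 : w n ≠ 0 := fun e => one_ne_zero (α := F) (by rw [← hwn, e, mul_zero])
  rcases hA.shape hwO with h | ⟨a, b, hab, ha, hb, hc⟩
  · obtain ⟨m, s, hs, he⟩ := axis_eq h (hA.hyp.orbit_norm hwO)
    rw [he] at hwn hwn0
    have hmn : n = m := by
      by_contra e
      exact hwn0 (by simp [ax_ne e])
    subst hmn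
    rcases hs with rfl | rfl <;> simp [ax] at hwn
    · exact one_ne_zero (α := F) (by linear_combination hwn)
    · exact hA.three (by linear_combination -hwn)
  · have : 2 * (w n * w n) = 1 := by
      rcases eq_or_ne n a with rfl | hna
      · exact ha
      rcases eq_or_ne n b with rfl | hnb
      · exact hb
      exact absurd (hc n hna hnb) hwn0
    exact one_ne_zero (α := F) (by linear_combination (2 * w n + 1) * hwn - 2 * this)

end MonoAll

end Cfsg.Agent.GeoLow.C6
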