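import Cfsg.Agent.Elusive25.MinusFour

/-!
Five anticommuting self-adjoint involutions of a four-dimensional symplectic space: the space they
span, its coordinates, and the quaternion algebra of three of them.
-/

set_option autoImplicit false

namespace Cfsg.Agent.GeoLow.C6

open Matrix Cfsg.Agent.Elusive25
open scoped MatrixGroups

variable {F : Type*} [Field F]

/-- Matrices of degree four. -/
abbrev M4 (F : Type*) := Matrix (Fin 2 ⊕ Fin 2) (Fin 2 ⊕ Fin 2) F

/-- Three anticommuting involutions of a ring. -/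
structure Three {A : Type*} [Ring A] (a b c : A) : Prop where
  aa : a * a = 1
  bb : b * b = 1
  cc : c * c = 1
  ba : b * a = -(a * b)
  ca : c * a = -(a * c)
  cb : c * b = -(b * c)

namespace Three

section ring

variable {A : Type*} [Ring A] {a b c : A} (h : Three a b c)
include h

lemma aa' (X : A) : a * (a * X) = X := by rw [← mul_assoc, h.aa, one_mul]
lemma bb' (X : A) : b * (b * X) = X := by rw [← mul_assoc, h.bb, one_mul]
lemma cc' (X : A) : c * (c * X) = X := by rw [← mul_assoc, h.cc, one_mul]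
lemma ba' (X : A) : b * (a * X) = -(a * (b * X)) := by rw [← mul_assoc, h.ba, neg_mul, mul_assoc]
lemma ca' (X : A) : c * (a * X) = -(a * (c * X)) := by rw [← mul_assoc, h.ca, neg_mul, mul_assoc]
lemma cb' (X : A) : c * (b * X) = -(b * (c * X)) := by rw [← mul_assoc, h.cb, neg_mul, mul_assoc]

lemma rotate : Three b c a :=
  ⟨h.bb, h.cc, h.aa, h.cb, by rw [h.ba, neg_neg], by rw [h.ca, neg_neg]⟩

end ring

end Three

section qu

variable {A : Type*} [Ring A] [Algebra F A]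

/-- An element of the quaternion algebra of three anticommuting involutions. -/
def qu (a b c : A) (s u v w : F) : A := s • (1 : A) + u • (a * b) + v • (b * c) + w • (c * a)

lemma qu_one (a b c : A) : qu a b c (1 : F) 0 0 0 = 1 := by simp [qu]

variable {a b c : A} (h : Three a b c)
include h

lemma qu_mul (s u v w s' u' v' w' : F) :
    qu a b c s u v w * qu a b c s' u' v' w' =
      qu a b c (s * s' - u * u' - v * v' - w * w') (s * u' + u * s' - v * w' + w * v')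
        (s * v' + v * s' - w * u' + u * w') (s * w' + w * s' - u * v' + v * u') := by
  simp only [qu, add_mul, mul_add, smul_mul_assoc, mul_smul_comm, one_mul, mul_one,
    mul_assoc, h.aa', h.bb', h.ba', h.ca', h.cb', h.aa, h.bb, h.cc, h.ba, h.ca, h.cb,
    mul_neg, neg_mul, neg_neg, smul_neg]
  module

/-- The element of order three. -/
lemma cycle_conj :
    qu a b c (2⁻¹ : F) 2⁻¹ 2⁻¹ 2⁻¹ * a = c * qu a b c (2⁻¹ : F) 2⁻¹ 2⁻¹ 2⁻¹ := by
  simp only [qu, add_mul, mul_add, smul_mul_assoc, mul_smul_comm, one_mul, mul_one, mul_assoc,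
    h.aa', h.ba', h.ca', h.cb', h.cc, h.ba, h.ca, h.cb, mul_neg, neg_mul, neg_neg,
    smul_neg]
  module

lemma qu_rotate (s u v w : F) : qu b c a s v w u = qu a b c s u v w := by
  simp only [qu]; abel

end qu

/-- Five anticommuting self-adjoint involutions. -/
structure Frame (Γ : Fin 5 → M4 F) : Prop where
  two : (2 : F) ≠ 0
  sq : ∀ i, Γ i * Γ i = 1
  anti : ∀ i j, i ≠ j → Γ j * Γ i = -(Γ i * Γ j)
  adj : ∀ i, sympAdj (Γ i) = Γ i

/-- The standard bilinear form of the five coordinates. -/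
def dot (v w : Fin 5 → F) : F := ∑ i, v i * w i

lemma dot_comm (v w : Fin 5 → F) : dot v w = dot w v := by simp [dot, mul_comm]

/-- The unit vectors. -/
def ax (i : Fin 5) : Fin 5 → F := Pi.single i 1

lemma dot_ax (v : Fin 5 → F) (i : Fin 5) : dot v (ax i) = v i := by
  simp [dot, ax, Pi.single_apply]

lemma dot_ax_ax (i : Fin 5) : dot (ax i : Fin 5 → F) (ax i) = 1 := by
  rw [dot_ax]; simp [ax]

/-- A combination of the five involutions. -/
def vec (Γ : Fin 5 → M4 F) (v : Fin 5 → F) : M4 F := ∑ i, v i • Γ i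

/-- The coordinates of a combination. -/
def coord (Γ : Fin 5 → M4 F) (X : M4 F) : Fin 5 → F := fun i => (4 : F)⁻¹ * (X * Γ i).trace

lemma vec_ax (Γ : Fin 5 → M4 F) (i : Fin 5) : vec Γ (ax i) = Γ i := by
  simp [vec, ax, Pi.single_apply, ite_smul]

lemma vec_add (Γ : Fin 5 → M4 F) (v w : Fin 5 → F) : vec Γ (v + w) = vec Γ v + vec Γ w := by
  simp [vec, add_smul, Finset.sum_add_distrib]

lemma vec_smul (Γ : Fin 5 → M4 F) (c : F) (v : Fin 5 → F) : vec Γ (c • v) = c • vec Γ v := by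
  simp [vec, Finset.smul_sum, smul_smul]

lemma vec_neg (Γ : Fin 5 → M4 F) (v : Fin 5 → F) : vec Γ (-v) = -vec Γ v := by
  rw [← neg_one_smul F v, vec_smul, neg_one_smul]

/-- The sixteen basis products. -/
def bas (Γ : Fin 5 → M4 F) : Fin 16 → M4 F :=
  ![1, Γ 0, Γ 1, Γ 2, Γ 3, Γ 4, Γ 0 * Γ 1, Γ 0 * Γ 2, Γ 0 * Γ 3, Γ 0 * Γ 4, Γ 1 * Γ 2, Γ 1 * Γ 3,
    Γ 1 * Γ 4, Γ 2 * Γ 3, Γ 2 * Γ 4, Γ 3 * Γ 4]

/-- The factors of the sixteen products. -/
def lst : Fin 16 → List (Fin 5) :=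
  ![[], [0], [1], [2], [3], [4], [0, 1], [0, 2], [0, 3], [0, 4], [1, 2], [1, 3], [1, 4], [2, 3],
    [2, 4], [3, 4]]

/-- The sign of a basis product under conjugation by one of the involutions. -/
def sgn (l : Fin 5) (k : Fin 16) : ℤ :=
  ((lst k).map fun i => if l = i then (1 : ℤ) else -1).prod

namespace Frame

variable {Γ : Fin 5 → M4 F} (hΓ : Frame Γ)
include hΓ

lemma four : (4 : F) ≠ 0 := by
  rw [show (4 : F) = 2 * 2 by norm_num]; exact mul_ne_zero hΓ.two hΓ.two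

lemma three {i j k : Fin 5} (hij : i ≠ j) (hjk : j ≠ k) (hik : i ≠ k) :
    Three (Γ i) (Γ j) (Γ k) :=
  ⟨hΓ.sq i, hΓ.sq j, hΓ.sq k, hΓ.anti i j hij, hΓ.anti i k hik, hΓ.anti j k hjk⟩

lemma reindex (π : Equiv.Perm (Fin 5)) : Frame (Γ ∘ π) :=
  ⟨hΓ.two, fun i => hΓ.sq (π i), fun i j h => hΓ.anti (π i) (π j) fun e => h (π.injective e),
    fun i => hΓ.adj (π i)⟩

lemma trace_zero {X : M4 F} (l : Fin 5) (h : Γ l * X = -(X * Γ l)) : X.trace = 0 := by
  have h' : (Γ l * X * Γ l).trace = X.trace := by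
    rw [Matrix.trace_mul_cycle, hΓ.sq, one_mul]
  rw [h, neg_mul, mul_assoc, hΓ.sq, mul_one, Matrix.trace_neg] at h'
  exact (mul_eq_zero.1 (show (2 : F) * X.trace = 0 by linear_combination -h')).resolve_left hΓ.two

lemma trace_Γ (i : Fin 5) : (Γ i).trace = 0 := by
  obtain ⟨l, hl⟩ := exists_ne i
  exact hΓ.trace_zero l (hΓ.anti i l hl.symm)

lemma trace_mul (i j : Fin 5) (h : i ≠ j) : (Γ i * Γ j).trace = 0 :=
  hΓ.trace_zero i (by rw [← mul_assoc, hΓ.sq, one_mul, mul_assoc, hΓ.anti i j h, mul_neg,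
    ← mul_assoc, hΓ.sq, one_mul, neg_neg])

lemma coord_vec (v : Fin 5 → F) : coord Γ (vec Γ v) = v := by
  funext i
  rw [coord, vec, Finset.sum_mul, Matrix.trace_sum, Finset.sum_eq_single i]
  · rw [smul_mul_assoc, hΓ.sq, Matrix.trace_smul, Matrix.trace_one, smul_eq_mul]
    have := hΓ.four
    simp [Fintype.card_sum]
    field_simp
  · intro j _ hj
    rw [smul_mul_assoc, Matrix.trace_smul, hΓ.trace_mul j i hj, smul_zero]
  · simp

lemma vec_inj {v w : Fin 5 → F} (h : vec Γ v = vec Γ w) : v = w := by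
  rw [← hΓ.coord_vec v, h, hΓ.coord_vec]

lemma anticomm_vec (v w : Fin 5 → F) :
    vec Γ v * vec Γ w + vec Γ w * vec Γ v = (2 * dot v w) • (1 : M4 F) := by
  simp only [vec, Finset.sum_mul_sum, smul_mul_smul_comm]
  rw [Finset.sum_comm (f := fun i j => (w i * v j) • (Γ i * Γ j)), ← Finset.sum_add_distrib, dot,
    Finset.mul_sum, Finset.sum_smul]
  refine Finset.sum_congr rfl fun i _ => ?_
  rw [← Finset.sum_add_distrib, Finset.sum_eq_single i]
  · rw [hΓ.sq, ← add_smul]; congr 1; ring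
  · intro j _ hj
    rw [hΓ.anti i j (Ne.symm hj), smul_neg, ← sub_eq_add_neg, mul_comm (w j), sub_self]
  · simp

lemma vec_sq (v : Fin 5 → F) : vec Γ v * vec Γ v = dot v v • (1 : M4 F) := by
  have h := hΓ.anticomm_vec v v
  rw [← two_smul F, mul_smul] at h
  exact smul_right_injective _ hΓ.two h

lemma adj_vec (v : Fin 5 → F) : sympAdj (vec Γ v) = vec Γ v := by
  simp [vec, map_sum, sympAdj_smul, hΓ.adj]

lemma trace_vec (v : Fin 5 → F) : (vec Γ v).trace = 0 := by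
  simp [vec, Matrix.trace_sum, hΓ.trace_Γ]

lemma bas_comm (l : Fin 5) (k : Fin 16) :
    Γ l * bas Γ k * Γ l = (sgn l k : F) • bas Γ k := by
  have e1 : ∀ i, Γ l * Γ i * Γ l = (if l = i then (1 : F) else -1) • Γ i := by
    intro i
    split_ifs with h
    · rw [h, hΓ.sq, one_mul, one_smul]
    · rw [mul_assoc, hΓ.anti l i h, mul_neg, ← mul_assoc, hΓ.sq, one_mul, neg_one_smul]
  have e2 : ∀ i j, Γ l * (Γ i * Γ j) * Γ l =
      ((if l = i then (1 : F) else -1) * (if l = j then (1 : F) else -1)) • (Γ i * Γ j) := by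
    intro i j
    rw [← smul_mul_smul_comm, ← e1, ← e1]
    simp only [mul_assoc]
    rw [← mul_assoc (Γ l) (Γ l), hΓ.sq, one_mul]
  fin_cases k <;> simp [bas, lst, sgn, e1, e2, hΓ.sq]

lemma bas_ne (k : Fin 16) : bas Γ k ≠ 0 := by
  have h1 : (1 : M4 F) ≠ 0 := one_ne_zero
  have hu : ∀ i X, X ≠ 0 → Γ i * X ≠ 0 := fun i X hX h =>
    hX (by rw [← one_mul X, ← hΓ.sq i, mul_assoc, h, mul_zero])
  have hone : ∀ i, Γ i ≠ 0 := fun i => by simpa using hu i 1 h1
  fin_cases k <;> simp [bas, hone, hu]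

lemma bas_li : LinearIndependent F (bas Γ) := by
  rw [Fintype.linearIndependent_iff]
  intro g hg k
  have hχ := hΓ.bas_comm
  have step : ∀ (l : Fin 5) (c : Fin 16 → F), ∑ m, c m • bas Γ m = 0 →
      ∑ m, (c m * (1 + sgn l k * sgn l m)) • bas Γ m = 0 := by
    intro l c hc
    have h := congrArg (fun X => Γ l * X * Γ l) hc
    simp only [Finset.mul_sum, Finset.sum_mul, mul_smul_comm, smul_mul_assoc, hχ, mul_zero,
      zero_mul, smul_smul] at h
    calc ∑ m, (c m * (1 + sgn l k * sgn l m)) • bas Γ m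
        = ∑ m, c m • bas Γ m + (sgn l k : F) • ∑ m, (c m * sgn l m) • bas Γ m := by
          rw [Finset.smul_sum, ← Finset.sum_add_distrib]
          exact Finset.sum_congr rfl fun m _ => by module
      _ = 0 := by rw [hc, h, smul_zero, add_zero]
  have h5 := step 4 _ (step 3 _ (step 2 _ (step 1 _ (step 0 _ hg))))
  have key : ∀ m k, (1 + sgn 0 k * sgn 0 m) * (1 + sgn 1 k * sgn 1 m) * (1 + sgn 2 k * sgn 2 m) *
      (1 + sgn 3 k * sgn 3 m) * (1 + sgn 4 k * sgn 4 m) = if m = k then 32 else 0 := by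
    decide
  rw [Finset.sum_eq_single k] at h5
  · have hk := congrArg (fun z : ℤ => (z : F)) (key k k)
    rw [if_pos rfl] at hk
    push_cast at hk
    rw [smul_eq_zero, or_iff_left (hΓ.bas_ne k)] at h5
    have h32 : (32 : F) ≠ 0 := by
      rw [show (32 : F) = 2 * 2 * 2 * 2 * 2 by norm_num]
      have := hΓ.two
      simp [this]
    exact (mul_eq_zero.1 (show g k * 32 = 0 by linear_combination h5 - g k * hk)).resolve_right h32
  · intro m _ hm
    have hk := congrArg (fun z : ℤ => (z : F)) (key m k)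
    rw [if_neg hm] at hk
    push_cast at hk
    rw [show g m * (1 + (sgn 0 k : F) * sgn 0 m) * (1 + (sgn 1 k : F) * sgn 1 m) *
      (1 + (sgn 2 k : F) * sgn 2 m) * (1 + (sgn 3 k : F) * sgn 3 m) * (1 + (sgn 4 k : F) * sgn 4 m) = 0 by
        linear_combination g m * hk, zero_smul]
  · simp

/-- Self-adjoint matrices of trace zero are combinations of the involutions. -/
lemma vec_coord {X : M4 F} (hadj : sympAdj X = X) (htr : X.trace = 0) :
    vec Γ (coord Γ X) = X := by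
  obtain ⟨c, rfl⟩ : ∃ c : Fin 16 → F, ∑ k, c k • bas Γ k = X := by
    refine (Submodule.mem_span_range_iff_exists_fun F).1 ?_
    rw [hΓ.bas_li.span_eq_top_of_card_eq_finrank' (by
      simp [Module.finrank_matrix])]
    trivial
  let d : Fin 16 → F := fun k => if (k : ℕ) ≤ 5 then c k else -c k
  have hd : sympAdj (∑ k, c k • bas Γ k) = ∑ k, d k • bas Γ k := by
    rw [map_sum]
    refine Finset.sum_congr rfl fun k _ => ?_
    have e : ∀ i j, i ≠ j → sympAdj (Γ i * Γ j) = -(Γ i * Γ j) := fun i j h => by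
      rw [sympAdj_mul, hΓ.adj, hΓ.adj, hΓ.anti i j h]
    rw [sympAdj_smul]
    fin_cases k <;> simp [bas, d, sympAdj_one, hΓ.adj, e]
  rw [hadj] at hd
  have hcd : ∀ k, c k = d k := fun k => sub_eq_zero.1
    (Fintype.linearIndependent_iff.1 hΓ.bas_li (fun k => c k - d k) (by
      simp only [sub_smul, Finset.sum_sub_distrib, ← hd, sub_self]) k)
  have hz : ∀ k : Fin 16, ¬ (k : ℕ) ≤ 5 → c k = 0 := fun k hk => by
    have h := hcd k
    simp only [d, if_neg hk] at h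
    exact (mul_eq_zero.1 (show (2 : F) * c k = 0 by linear_combination h)).resolve_left hΓ.two
  have h0 : c 0 = 0 := by
    simp [Fin.sum_univ_succ, bas, hz, Matrix.trace_add, hΓ.trace_Γ, Fintype.card_sum] at htr
    exact htr.resolve_right hΓ.four
  have he : ∑ k, c k • bas Γ k = vec Γ ![c 1, c 2, c 3, c 4, c 5] := by
    simp [Fin.sum_univ_succ, bas, vec, hz, h0]
  rw [he, hΓ.coord_vec]

end Frame

/-- The action of a matrix on the coordinates. -/
def act (Γ : Fin 5 → M4 F) (g : GL (Fin 2 ⊕ Fin 2) F) (v : Fin 5 → F) : Fin 5 → F :=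
  coord Γ ((g : M4 F) * vec Γ v * ((g⁻¹ : GL (Fin 2 ⊕ Fin 2) F) : M4 F))

namespace Frame

variable {Γ : Fin 5 → M4 F} (hΓ : Frame Γ)
include hΓ

lemma vec_act {g : GL (Fin 2 ⊕ Fin 2) F} (hg : g ∈ Cfsg.spGL 2 F) (v : Fin 5 → F) :
    vec Γ (act Γ g v) = (g : M4 F) * vec Γ v * ((g⁻¹ : GL (Fin 2 ⊕ Fin 2) F) : M4 F) := by
  have h := (mem_spGL_iff_adj g).1 hg
  have hinv : sympAdj (g : M4 F) = ((g⁻¹ : GL (Fin 2 ⊕ Fin 2) F) : M4 F) :=
    (Units.inv_eq_of_mul_eq_one_left h).symm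
  have hinv' : sympAdj ((g⁻¹ : GL (Fin 2 ⊕ Fin 2) F) : M4 F) = (g : M4 F) := by
    have h' := (mem_spGL_iff_adj g⁻¹).1 (inv_mem hg)
    have := congrArg (· * (g : M4 F)) h'
    rwa [one_mul, mul_assoc, Units.inv_mul, mul_one] at this
  refine hΓ.vec_coord ?_ ?_
  · rw [sympAdj_mul, sympAdj_mul, hinv, hinv', hΓ.adj_vec, ← mul_assoc]
  · rw [Matrix.trace_mul_cycle, Units.inv_mul, one_mul, hΓ.trace_vec]

lemma act_mul {g h : GL (Fin 2 ⊕ Fin 2) F} (hh : h ∈ Cfsg.spGL 2 F) (v : Fin 5 → F) :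
    act Γ (g * h) v = act Γ g (act Γ h v) := by
  rw [act, act, hΓ.vec_act hh, _root_.mul_inv_rev, Units.val_mul, Units.val_mul]
  simp only [mul_assoc]

lemma act_one (v : Fin 5 → F) : act Γ 1 v = v := by simp [act, hΓ.coord_vec]

lemma act_inv_cancel {g : GL (Fin 2 ⊕ Fin 2) F} (hg : g ∈ Cfsg.spGL 2 F) (v : Fin 5 → F) :
    act Γ g⁻¹ (act Γ g v) = v := by
  rw [← hΓ.act_mul hg, inv_mul_cancel, hΓ.act_one]

lemma act_cancel_inv {g : GL (Fin 2 ⊕ Fin 2) F} (hg : g ∈ Cfsg.spGL 2 F) (v : Fin 5 → F) :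
    act Γ g (act Γ g⁻¹ v) = v := by
  rw [← hΓ.act_mul (inv_mem hg), mul_inv_cancel, hΓ.act_one]

lemma act_eq {g : GL (Fin 2 ⊕ Fin 2) F} {v w : Fin 5 → F}
    (h : (g : M4 F) * vec Γ v = vec Γ w * (g : M4 F)) : act Γ g v = w := by
  rw [act, h, mul_assoc, Units.mul_inv, mul_one, hΓ.coord_vec]

omit hΓ in
lemma act_add (g : GL (Fin 2 ⊕ Fin 2) F) (v w : Fin 5 → F) :
    act Γ g (v + w) = act Γ g v + act Γ g w := by
  funext i
  simp [act, coord, vec_add, mul_add, add_mul, Matrix.trace_add]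

omit hΓ in
lemma act_smul (g : GL (Fin 2 ⊕ Fin 2) F) (c : F) (v : Fin 5 → F) :
    act Γ g (c • v) = c • act Γ g v := by
  funext i
  simp [act, coord, vec_smul, Matrix.trace_smul]
  ring

omit hΓ in
lemma act_neg (g : GL (Fin 2 ⊕ Fin 2) F) (v : Fin 5 → F) : act Γ g (-v) = -act Γ g v := by
  rw [← neg_one_smul F v, act_smul, neg_one_smul]

lemma dot_act {g : GL (Fin 2 ⊕ Fin 2) F} (hg : g ∈ Cfsg.spGL 2 F) (v w : Fin 5 → F) :
    dot (act Γ g v) (act Γ g w) = dot v w := by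
  have h1 := hΓ.anticomm_vec (act Γ g v) (act Γ g w)
  rw [hΓ.vec_act hg, hΓ.vec_act hg] at h1
  have h2 : ∀ X Y : M4 F, (g : M4 F) * X * ((g⁻¹ : GL (Fin 2 ⊕ Fin 2) F) : M4 F) *
      ((g : M4 F) * Y * ((g⁻¹ : GL (Fin 2 ⊕ Fin 2) F) : M4 F)) =
      (g : M4 F) * (X * Y) * ((g⁻¹ : GL (Fin 2 ⊕ Fin 2) F) : M4 F) := fun X Y => by
    simp only [mul_assoc, Units.inv_mul_cancel_left]
  rw [h2, h2, ← add_mul, ← mul_add, hΓ.anticomm_vec, mul_smul_comm, mul_one, smul_mul_assoc,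
    Units.mul_inv] at h1
  have h3 := congrFun (congrFun h1 (Sum.inl 0)) (Sum.inl 0)
  simp only [Matrix.smul_apply, Matrix.one_apply_eq, smul_eq_mul, mul_one] at h3
  exact (mul_left_cancel₀ hΓ.two h3).symm

/-- Conjugation by a norm-one combination. -/
lemma act_vec {h : GL (Fin 2 ⊕ Fin 2) F} {v : Fin 5 → F} (hh : (h : M4 F) = vec Γ v)
    (hv : dot v v = 1) (w : Fin 5 → F) : act Γ h w = (2 * dot v w) • v - w := by
  refine hΓ.act_eq ?_
  have h2 : vec Γ w * vec Γ v = (2 * dot v w) • (1 : M4 F) - vec Γ v * vec Γ w := by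
    rw [eq_sub_iff_add_eq', hΓ.anticomm_vec]
  rw [hh, sub_eq_add_neg, vec_add, vec_smul, vec_neg, add_mul, neg_mul, smul_mul_assoc,
    hΓ.vec_sq, hv, one_smul, h2]
  abel

end Frame

end Cfsg.Agent.GeoLow.C6
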