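import Cfsg.Agent.GeoLow.SympFourC6.Axes
import Cfsg.Agent.ClassicalMax.SympFourOdd
import Cfsg.Agent.GeoClasses.SympTotDecomp
import Cfsg.Agent.GeoLow.OverfieldTwo

/-!
The normaliser of a group of symplectic type and minus type of order 32 is maximal in `Sp_4(p)`:
an overgroup either keeps the five involutions monomial, and normalises, or contains the whole
class of one of them, and with it every transvection.
-/

set_option autoImplicit false

namespace Cfsg.Agent.GeoLow.C6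

open Matrix Cfsg.Geo Cfsg.Agent.Elusive25 Cfsg.Agent.ClassicalMax Cfsg.Agent.GeoClasses
  Cfsg.Agent.Forms
open scoped MatrixGroups Matrix

variable {F : Type*} [Field F]

local notation "V" => (Fin 2 ⊕ Fin 2 → F)
local notation "β" => sympBil 2 F

lemma exists_sign_swap : ∀ π : Equiv.Perm (Fin 5),
    Equiv.Perm.sign (Equiv.swap (π 0) (π 1) * Equiv.swap (π 3) (π 4)) = 1 := by
  intro π
  rw [map_mul, Equiv.Perm.sign_swap (π.injective.ne (by decide)),
    Equiv.Perm.sign_swap (π.injective.ne (by decide))]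
  rfl

lemma adj_of_sq {g : GL (Fin 2 ⊕ Fin 2) F} (hg : g ∈ Cfsg.spGL 2 F)
    (h : (g : M4 F) * (g : M4 F) = 1) : sympAdj (g : M4 F) = g := by
  have e := congrArg (· * (g : M4 F)) ((mem_spGL_iff_adj g).1 hg)
  rwa [mul_assoc, h, mul_one, one_mul] at e

lemma mem_normalizer_of_conj [Fintype F] {R : Subgroup (GL (Fin 2 ⊕ Fin 2) F)}
    {g : GL (Fin 2 ⊕ Fin 2) F} (h : ∀ r ∈ R, g * r * g⁻¹ ∈ R) : g ∈ subgroupNormalizer R := by
  have hpow : ∀ k : ℕ, ∀ r ∈ R, g ^ k * r * (g ^ k)⁻¹ ∈ R := fun k => by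
    induction k with
    | zero => intro r hr; simpa using hr
    | succ k ih =>
      intro r hr
      have e : g ^ (k + 1) * r * (g ^ (k + 1))⁻¹ = g * (g ^ k * r * (g ^ k)⁻¹) * g⁻¹ := by
        rw [pow_succ']; group
      rw [e]
      exact h _ (ih r hr)
  refine Subgroup.mem_normalizer_iff.2 fun r => ⟨h r, fun hr => ?_⟩
  have hn := orderOf_pos g
  have e : g ^ (orderOf g - 1) = g⁻¹ := by
    refine eq_inv_of_mul_eq_one_left ?_
    rw [← pow_succ, Nat.sub_add_cancel hn, pow_orderOf_eq_one]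
  have := hpow (orderOf g - 1) _ hr
  rw [e] at this
  simpa [mul_assoc] using this

/-- Five anticommuting involutions generating the group. -/
lemma exists_frame [Fintype F] {R : Subgroup (GL (Fin 2 ⊕ Fin 2) F)} (hF : MinusFacts R)
    (hle : R ≤ Cfsg.spGL 2 F) (h2 : (2 : F) ≠ 0) :
    ∃ G : Fin 5 → GL (Fin 2 ⊕ Fin 2) F, Frame (fun i => (G i : M4 F)) ∧ (∀ i, G i ∈ R) ∧
      R ≤ Subgroup.closure (Set.range G) ∧ ∀ x : GL (Fin 2 ⊕ Fin 2) F, ∀ j,
        (x : M4 F) = -(G j : M4 F) → x ∈ R := by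
  obtain ⟨a, ha, b, hb, c, hc, d, hd, hrel, hgen⟩ := hF.rel
  obtain ⟨cc, dd, cd, aa, bb, ab, ca, cb, da, db⟩ := hrel
  obtain ⟨G, hG⟩ : ∃ G : Fin 5 → GL (Fin 2 ⊕ Fin 2) F,
      G = ![a, b, a * b * c, a * b * d, a * b * c * d] := ⟨_, rfl⟩
  have hR : ∀ i, G i ∈ R := fun i => by
    subst hG
    fin_cases i
    exacts [ha, hb, mul_mem (mul_mem ha hb) hc, mul_mem (mul_mem ha hb) hd,
      mul_mem (mul_mem (mul_mem ha hb) hc) hd]
  have ba : (b : M4 F) * a = -((a : M4 F) * b) := by rw [ab, neg_neg]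
  have dc : (d : M4 F) * c = -((c : M4 F) * d) := by rw [cd, neg_neg]
  have ba' : ∀ X : M4 F, (b : M4 F) * (a * X) = -((a : M4 F) * (b * X)) := fun X => by
    rw [← mul_assoc, ba, neg_mul, mul_assoc]
  have dc' : ∀ X : M4 F, (d : M4 F) * (c * X) = -((c : M4 F) * (d * X)) := fun X => by
    rw [← mul_assoc, dc, neg_mul, mul_assoc]
  have ca' : ∀ X : M4 F, (c : M4 F) * (a * X) = (a : M4 F) * (c * X) := fun X => by
    rw [← mul_assoc, ca, mul_assoc]
  have cb' : ∀ X : M4 F, (c : M4 F) * (b * X) = (b : M4 F) * (c * X) := fun X => by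
    rw [← mul_assoc, cb, mul_assoc]
  have da' : ∀ X : M4 F, (d : M4 F) * (a * X) = (a : M4 F) * (d * X) := fun X => by
    rw [← mul_assoc, da, mul_assoc]
  have db' : ∀ X : M4 F, (d : M4 F) * (b * X) = (b : M4 F) * (d * X) := fun X => by
    rw [← mul_assoc, db, mul_assoc]
  have aa' : ∀ X : M4 F, (a : M4 F) * (a * X) = X := fun X => by rw [← mul_assoc, aa, one_mul]
  have bb' : ∀ X : M4 F, (b : M4 F) * (b * X) = X := fun X => by rw [← mul_assoc, bb, one_mul]
  have cc' : ∀ X : M4 F, (c : M4 F) * (c * X) = -X := fun X => by rw [← mul_assoc, cc, neg_one_mul]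
  have dd' : ∀ X : M4 F, (d : M4 F) * (d * X) = -X := fun X => by rw [← mul_assoc, dd, neg_one_mul]
  have hsq : ∀ i, (G i : M4 F) * (G i : M4 F) = 1 := fun i => by
    subst hG
    fin_cases i <;>
      simp [mul_assoc, aa, bb, cc, dd, ba, dc, ca, cb, da, db, ba', dc', ca', cb', da', db', aa',
        bb', cc', dd']
  have hanti : ∀ i j, i ≠ j → (G j : M4 F) * (G i : M4 F) = -((G i : M4 F) * (G j : M4 F)) := by
    subst hG
    intro i j hij
    fin_cases i <;> fin_cases j <;> first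
      | exact (hij rfl).elim
      | simp [mul_assoc, aa, bb, cc, dd, ba, dc, ca, cb, da, db, ba', dc', ca', cb', da', db', aa',
          bb', cc', dd']
  refine ⟨G, ⟨h2, hsq, hanti, fun i => adj_of_sq (hle (hR i)) (hsq i)⟩, hR, ?_, fun x j hx => ?_⟩
  · refine hgen.trans ((Subgroup.closure_le _).2 ?_)
    have hm : ∀ i, G i ∈ Subgroup.closure (Set.range G) := fun i =>
      Subgroup.subset_closure (Set.mem_range_self i)
    have g0 : G 0 = a := by simp [hG]
    have g1 : G 1 = b := by simp [hG]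
    have g2 : G 2 = a * b * c := by simp [hG]
    have g3 : G 3 = a * b * d := by simp [hG]
    have hc' : c = (G 0 * G 1)⁻¹ * G 2 := by rw [g0, g1, g2, inv_mul_cancel_left]
    have hd' : d = (G 0 * G 1)⁻¹ * G 3 := by rw [g0, g1, g3, inv_mul_cancel_left]
    intro x hx
    simp only [Set.mem_insert_iff, Set.mem_singleton_iff] at hx
    rcases hx with hx | hx | hx | hx <;> rw [hx, SetLike.mem_coe]
    · exact g0 ▸ hm 0
    · exact g1 ▸ hm 1
    · rw [hc']; exact mul_mem (inv_mem (mul_mem (hm 0) (hm 1))) (hm 2)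
    · rw [hd']; exact mul_mem (inv_mem (mul_mem (hm 0) (hm 1))) (hm 3)
  · have e : x = G 0 * G 1 * (G 0 * G 1) * G j := Units.ext (by
      have h := hanti 0 1 (by decide)
      simp only [Units.val_mul, hx]
      rw [mul_assoc (G 0 : M4 F) (G 1 : M4 F), ← mul_assoc (G 1 : M4 F) (G 0 : M4 F) (G 1 : M4 F), h,
        neg_mul, mul_assoc (G 0 : M4 F) (G 1 : M4 F) (G 1 : M4 F), hsq 1, mul_one, mul_neg, hsq 0,
        neg_one_mul])
    rw [e]
    exact mul_mem (mul_mem (mul_mem (hR 0) (hR 1)) (mul_mem (hR 0) (hR 1))) (hR j)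

section Over

variable [Fintype F] {G : Fin 5 → GL (Fin 2 ⊕ Fin 2) F} {R M : Subgroup (GL (Fin 2 ⊕ Fin 2) F)}

/-- The standing hypotheses hold for an overgroup of the normaliser. -/
lemma hyp_of_normalizer (hΓ : Frame (fun i => (G i : M4 F))) (hR : ∀ i, G i ∈ R)
    (hgen : R ≤ Subgroup.closure (Set.range G)) (hle : R ≤ Cfsg.spGL 2 F)
    (hN : subgroupNormalizer R ⊓ Cfsg.spGL 2 F ≤ M) (hM : M ≤ Cfsg.spGL 2 F) :
    Hyp (fun i => (G i : M4 F)) M := by
  refine ⟨hΓ, hM, fun i => ⟨G i, hN ⟨Subgroup.le_normalizer (hR i), hle (hR i)⟩, rfl⟩,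
    fun i j k hij hjk hik => ?_⟩
  have h2 := hΓ.two
  have h3 := hΓ.three hij hjk hik
  obtain ⟨q, hq⟩ : ∃ q, q = qu (G i : M4 F) (G j : M4 F) (G k : M4 F) (2⁻¹ : F) 2⁻¹ 2⁻¹ 2⁻¹ :=
    ⟨_, rfl⟩
  have hinv : (2 : F) * 2⁻¹ = 1 := mul_inv_cancel₀ h2
  have hadj : sympAdj q * q = 1 := by
    rw [hq, adj_qu hΓ hij hjk hik, qu_mul h3]
    refine Eq.trans ?_ (qu_one (F := F) (G i : M4 F) (G j : M4 F) (G k : M4 F))
    congr 1
    · linear_combination (2 * (2 : F)⁻¹ + 1) * hinv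
    all_goals ring
  obtain ⟨g, hg⟩ : ∃ g : GL (Fin 2 ⊕ Fin 2) F, (g : M4 F) = q :=
    ⟨⟨q, sympAdj q, mul_eq_one_comm.1 hadj, hadj⟩, rfl⟩
  have hgs : g ∈ Cfsg.spGL 2 F := (mem_spGL_iff_adj g).2 (by rw [hg]; exact hadj)
  refine ⟨g, hN ⟨mem_normalizer_of_conj ?_, hgs⟩, by rw [hg, hq]⟩
  have key : R ≤ R.comap (MulAut.conj g).toMonoidHom := by
    refine hgen.trans ((Subgroup.closure_le _).2 ?_)
    rintro _ ⟨l, rfl⟩
    obtain ⟨m, hm⟩ : ∃ m, q * (G l : M4 F) = (G m : M4 F) * q := by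
      rw [hq]
      by_cases hli : l = i
      · subst hli; exact ⟨k, cycle_conj h3⟩
      by_cases hlj : l = j
      · subst hlj
        refine ⟨i, ?_⟩
        have h := cycle_conj (F := F) h3.rotate
        rwa [qu_rotate h3] at h
      by_cases hlk : l = k
      · subst hlk
        refine ⟨j, ?_⟩
        have h := cycle_conj (F := F) h3.rotate.rotate
        rwa [qu_rotate h3.rotate, qu_rotate h3] at h
      exact ⟨l, qu_comm (hΓ.anti l i hli) (hΓ.anti l j hlj) (hΓ.anti l k hlk) _ _ _ _⟩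
    have e : g * G l * g⁻¹ = G m := by
      rw [mul_inv_eq_iff_eq_mul]
      exact Units.ext (by simp only [Units.val_mul, hg, hm])
    show g * G l * g⁻¹ ∈ R
    rw [e]
    exact hR m
  exact fun r hr => key hr

/-- An overgroup keeping the axes normalises the group. -/
lemma le_normalizer_of_axes (hH : Hyp (fun i => (G i : M4 F)) M) (hR : ∀ i, G i ∈ R)
    (hgen : R ≤ Subgroup.closure (Set.range G))
    (hneg : ∀ x : GL (Fin 2 ⊕ Fin 2) F, ∀ j, (x : M4 F) = -(G j : M4 F) → x ∈ R)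
    (hax : ∀ v, InOrbit (fun i => (G i : M4 F)) M v → IsAxis v) : M ≤ subgroupNormalizer R := by
  intro g hg
  refine mem_normalizer_of_conj fun r hr => ?_
  have key : R ≤ R.comap (MulAut.conj g).toMonoidHom := by
    refine hgen.trans ((Subgroup.closure_le _).2 ?_)
    rintro _ ⟨l, rfl⟩
    obtain ⟨j, s, hs, he⟩ := axis_eq (hax _ ⟨g, hg, l, rfl⟩)
      (by rw [hH.frame.dot_act (hH.le hg), dot_ax_ax])
    have e := hH.frame.vec_act (hH.le hg) (ax l)
    rw [he, vec_smul, vec_ax, vec_ax] at e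
    show g * G l * g⁻¹ ∈ R
    rcases hs with rfl | rfl
    · rw [one_smul] at e
      rw [show g * G l * g⁻¹ = G j from Units.ext (by simp only [Units.val_mul]; exact e.symm)]
      exact hR j
    · rw [neg_one_smul] at e
      exact hneg _ j (by simp only [Units.val_mul]; exact e.symm)
  exact key hr

/-- Either the axes are kept or the orbit is everything of norm one. -/
lemma axes_or_all {p : ℕ} [Fact p.Prime] (hp : Fintype.card F = p) {Γ : Fin 5 → M4 F}
    (hH : Hyp Γ M) :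
    (∀ v, InOrbit Γ M v → IsAxis v) ∨ ∀ v, dot v v = 1 → InOrbit Γ M v := by
  classical
  have h2 := hH.frame.two
  by_cases h3 : (3 : F) = 0
  · have hF3 : ∀ x : F, x = 0 ∨ x = 1 ∨ x = -1 := by
      have hchar : CharP F p := by
        obtain ⟨n, hn, he⟩ := FiniteField.card F (ringChar F)
        rw [hp] at he
        have : ringChar F = p :=
          (Nat.prime_dvd_prime_iff_eq hn Fact.out).mp (he ▸ dvd_pow_self _ n.ne_zero)
        exact this ▸ ringChar.charP F
      have hp3 : p = 3 := (Nat.prime_dvd_prime_iff_eq Fact.out Nat.prime_three).1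
        ((CharP.cast_eq_zero_iff F p 3).1 (by exact_mod_cast h3))
      intro x
      have hx : x ^ 3 = x := by
        have := FiniteField.pow_card x
        rwa [hp, hp3] at this
      rcases mul_eq_zero.1 (show x * (x * x - 1) = 0 by linear_combination hx) with h | h
      · exact Or.inl h
      · exact Or.inr (mul_self_eq_one_iff.1 (sub_eq_zero.1 h))
    by_cases hax : ∀ v, InOrbit Γ M v → IsAxis v
    · exact Or.inl hax
    push Not at hax
    obtain ⟨v, hv, hva⟩ := hax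
    exact Or.inr (orbit_of_three h3 hF3 hH hv hva)
  by_cases hF : ∃ π : Equiv.Perm (Fin 5), Full (Γ ∘ π) M
  · obtain ⟨π, hπ⟩ := hF
    refine Or.inr fun v hv => ?_
    obtain ⟨g, hg, i, hi⟩ := orbit_of_full h3 5 _ M (hH.reindex π) hπ (v ∘ π)
      (le_trans (Finset.card_le_univ _) (by simp)) (by rw [dot_comp, hv])
    exact ⟨g, hg, π i, π.surjective.injective_comp_right (by
      show act Γ g (ax (π i)) ∘ π = v ∘ π
      rw [← act_comp, ax_comp, π.symm_apply_apply, hi])⟩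
  push Not at hF
  refine Or.inl fun v hv => MonoAll.orbit_axis ⟨hH, h3, fun π => ?_⟩ hv
  have hΓ := hH.frame
  have n01 : π 0 ≠ π 1 := π.injective.ne (by decide)
  have n12 : π 1 ≠ π 2 := π.injective.ne (by decide)
  have n02 : π 0 ≠ π 2 := π.injective.ne (by decide)
  obtain ⟨a, ha, hae⟩ := hH.mem (π 0)
  obtain ⟨b, hb, hbe⟩ := hH.mem (π 1)
  obtain ⟨c, hc, hce⟩ := hH.mem (π 2)
  obtain ⟨σ, hσ⟩ : ∃ σ, σ = Equiv.swap (π 0) (π 1) * Equiv.swap (π 3) (π 4) := ⟨_, rfl⟩
  obtain ⟨g, hg, hge⟩ := hH.perm (π := σ)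
    (Equiv.Perm.mem_alternatingGroup.2 (hσ ▸ exists_sign_swap π))
  have hgm : ∀ l, (g : M4 F) * Γ l = Γ (σ l) * (g : M4 F) := fun l => by
    have e := hΓ.vec_act (hH.le hg) (ax l)
    rw [hge, vec_ax, vec_ax] at e
    rw [e, Units.inv_mul_cancel_right]
  have ne : ∀ {x y : Fin 5}, x ≠ y → π x ≠ π y := fun h => π.injective.ne h
  refine (triple_dichotomy hp h2 (hΓ.three n01 n12 n02) M
    ⟨a * b, mul_mem ha hb, by rw [Units.val_mul, hae, hbe]⟩
    ⟨b * c, mul_mem hb hc, by rw [Units.val_mul, hbe, hce]⟩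
    (hH.cyc _ _ _ n01 n12 n02) ⟨g, hg, ?_, ?_, ?_⟩).resolve_left (hF π)
  · rw [hgm, hσ, Equiv.Perm.mul_apply, Equiv.swap_apply_of_ne_of_ne (ne (by decide)) (ne (by decide)),
      Equiv.swap_apply_left]
  · rw [hgm, hσ, Equiv.Perm.mul_apply, Equiv.swap_apply_of_ne_of_ne (ne (by decide)) (ne (by decide)),
      Equiv.swap_apply_right]
  · rw [hgm, hσ, Equiv.Perm.mul_apply, Equiv.swap_apply_of_ne_of_ne (ne (by decide)) (ne (by decide)),
      Equiv.swap_apply_of_ne_of_ne (ne (by decide)) (ne (by decide))]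

end Over

section Transv

lemma spTau_add_sub {v w : V} (h : β v w = 0) (a : F) :
    spTau (v + w) a * spTau (v - w) a = spTau v (2 * a) * spTau w (2 * a) := by
  have hwv : β w v = 0 := by rw [spB_swap v w, h, neg_zero]
  refine gl_ext_mulVec fun x => ?_
  simp only [Units.val_mul, ← Matrix.mulVec_mulVec, spTau_apply, map_add, map_sub, map_smul,
    LinearMap.add_apply, LinearMap.sub_apply, LinearMap.smul_apply, smul_eq_mul, h, hwv,
    sympBil_isAlt.self_eq_zero]
  module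

lemma exists_dual {v w : V} (h : v ∉ (F ∙ w)) : ∃ x, β x w = 0 ∧ β x v = 1 := by
  obtain ⟨φ, hφ1, hφ⟩ := exists_functional (p := (F ∙ w)) h
  obtain ⟨z, hz⟩ : ∃ z, ∀ x, β z x = φ x :=
    ⟨(LinearMap.BilinForm.toDual β sympBil_nondegenerate).symm φ, fun x =>
      LinearMap.BilinForm.apply_toDual_symm_apply _ x⟩
  exact ⟨z, (hz w).trans (hφ w (Submodule.mem_span_singleton_self w)), (hz v).trans hφ1⟩

/-- A subgroup normalised by `Sp_4` containing a symplectic involution other than `±1` contains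
`Sp_4`. -/
lemma spGL_le_of_involution {S : Subgroup (GL (Fin 2 ⊕ Fin 2) F)} (h2 : (2 : F) ≠ 0)
    (hS : ∀ g ∈ Cfsg.spGL 2 F, ∀ x ∈ S, g * x * g⁻¹ ∈ S) {t : GL (Fin 2 ⊕ Fin 2) F}
    (ht : t ∈ S) (hts : t ∈ Cfsg.spGL 2 F) (htt : (t : M4 F) * (t : M4 F) = 1)
    (ht1 : (t : M4 F) ≠ 1) (ht1' : (t : M4 F) ≠ -1) : Cfsg.spGL 2 F ≤ S := by
  have hts2 : ∀ x : V, (t : M4 F) *ᵥ ((t : M4 F) *ᵥ x) = x := fun x => by
    rw [Matrix.mulVec_mulVec, htt, Matrix.one_mulVec]
  obtain ⟨v, hvp, hvm⟩ : ∃ v : V, (t : M4 F) *ᵥ v ≠ v ∧ (t : M4 F) *ᵥ v ≠ -v := by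
    by_contra hcon
    push Not at hcon
    obtain ⟨y, hy⟩ : ∃ y : V, (t : M4 F) *ᵥ y ≠ y := by
      by_contra h; push Not at h
      exact ht1 (Matrix.ext_of_mulVec_single fun i => by rw [h, Matrix.one_mulVec])
    obtain ⟨z, hz⟩ : ∃ z : V, (t : M4 F) *ᵥ z ≠ -z := by
      by_contra h; push Not at h
      exact ht1' (Matrix.ext_of_mulVec_single fun i => by rw [h, Matrix.neg_mulVec, Matrix.one_mulVec])
    have hy' := hcon y hy
    have hz' : (t : M4 F) *ᵥ z = z := by_contra fun h => hz (hcon z h)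
    by_cases h : (t : M4 F) *ᵥ (y + z) = y + z
    · rw [Matrix.mulVec_add, hy', hz'] at h
      exact hy (by rw [hy']; exact add_right_cancel h)
    · have h' := hcon _ h
      rw [Matrix.mulVec_add, hy', hz', neg_add] at h'
      exact hz (by rw [hz']; exact add_left_cancel h')
  obtain ⟨w, hw⟩ : ∃ w, w = (t : M4 F) *ᵥ v := ⟨_, rfl⟩
  have htw : (t : M4 F) *ᵥ w = v := by rw [hw, hts2]
  have hwv : β w v = 0 := by
    have e := mem_spGL_iff.1 hts v w
    rw [← hw, htw, spB_swap w v] at e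
    exact (mul_eq_zero.1 (show (2 : F) * β w v = 0 by linear_combination e)).resolve_left h2
  have hvw : β v w = 0 := by rw [spB_swap w v, hwv, neg_zero]
  have hspan : v ∉ (F ∙ w) := fun h => by
    obtain ⟨a, ha⟩ := Submodule.mem_span_singleton.1 h
    have e : w = a • v := by
      have e := congrArg ((t : M4 F) *ᵥ ·) ha
      simpa [Matrix.mulVec_smul, htw, ← hw] using e.symm
    have hv0 : v ≠ 0 := fun h0 => hvp (by rw [h0, Matrix.mulVec_zero])
    have haa : a * a = 1 := by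
      have e' : (a * a) • v = (1 : F) • v := by rw [mul_smul, ← e, ha, one_smul]
      exact smul_left_injective F hv0 e'
    rcases mul_self_eq_one_iff.1 haa with rfl | rfl
    · exact hvp (by rw [← hw, e, one_smul])
    · exact hvm (by rw [← hw, e, neg_one_smul])
  have hconj : ∀ g ∈ Cfsg.spGL 2 F, ∀ {x y : V} {c d : F}, spTau x c * spTau y d ∈ S →
      spTau ((g : M4 F) *ᵥ x) c * spTau ((g : M4 F) *ᵥ y) d ∈ S := by
    intro g hg x y c d h
    rw [GeoClasses.conj_spTau hg, GeoClasses.conj_spTau hg]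
    simpa [mul_assoc] using hS g hg _ h
  have hZ : ∀ c, spTau w c * spTau v (-c) ∈ S := fun c => by
    have h := mul_mem ht (hS _ (spTau_mem v c) _ (inv_mem ht))
    rw [GeoLow.Over2.spTau_inv] at h
    rw [hw, GeoClasses.conj_spTau hts]
    simpa [mul_assoc] using h
  obtain ⟨x, hxw, hxv⟩ := exists_dual hspan
  have hxw' : β w x = 0 := by rw [spB_swap x w, hxw, neg_zero]
  have hxv' : β v x = -1 := by rw [spB_swap x v, hxv]
  have step : ∀ s : F, ∀ c, spTau w c * spTau (v + s • w) (-c) ∈ S := fun s c => by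
    have hwx : β w ((-s) • x) = 0 := by simp [hxw']
    have h := hconj _ (spShort_mem_spGL w ((-s) • x)) (hZ c)
    rw [spShort_apply hwx, spShort_apply hwx] at h
    simpa [hxv', hxw', hwv, hvw, sympBil_isAlt.self_eq_zero] using h
  have hcentre : ∀ c, spTau v c ∈ S := fun c => by
    obtain ⟨e, he⟩ : ∃ e : F, e = -(c / 2) := ⟨_, rfl⟩
    have h1 := step 1 (-e)
    have h2' := step (-1) (-e)
    rw [one_smul, neg_neg] at h1
    rw [neg_one_smul, neg_neg, ← sub_eq_add_neg] at h2'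
    have h := mul_mem h1 h2'
    have hc1 : Commute (spTau (v + w) e) (spTau w (-e)) := MaxSub.Overfield.spTau_comm (by
      simp [hvw, sympBil_isAlt.self_eq_zero]) _ _
    rw [mul_assoc, ← mul_assoc (spTau (v + w) e), hc1.eq, mul_assoc (spTau w (-e)),
      spTau_add_sub hvw, ← mul_assoc, ← MaxSub.Overfield.spTau_add'] at h
    have hc2 : Commute (spTau w (-e + -e)) (spTau v (2 * e)) := MaxSub.Overfield.spTau_comm hwv _ _
    rw [← mul_assoc, hc2.eq, mul_assoc, ← MaxSub.Overfield.spTau_add',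
      show -e + -e + 2 * e = 0 by ring, MaxSub.Overfield.spTau_zero', mul_one] at h
    have he' : 2 * e = -c := by rw [he]; field_simp
    rw [he'] at h
    simpa [GeoLow.Over2.spTau_inv] using inv_mem h
  have move : ∀ {u₁ u₂ : V}, (∀ c, spTau u₁ c ∈ S) → β u₁ u₂ ≠ 0 → ∀ c, spTau u₂ c ∈ S := by
    intro u₁ u₂ h1 hne c
    have e : (spTau (u₂ - u₁) (β u₁ u₂)⁻¹ : M4 F) *ᵥ u₁ = u₂ := by
      rw [spTau_apply, map_sub, sympBil_isAlt.self_eq_zero, sub_zero, inv_mul_cancel₀ hne, one_smul,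
        add_sub_cancel]
    rw [← e, GeoClasses.conj_spTau (spTau_mem _ _)]
    exact hS _ (spTau_mem _ _) _ (h1 c)
  refine spGL_le_of_spTau_mem fun u c => ?_
  by_cases hu : u = 0
  · have e : spTau u c = 1 := gl_ext_mulVec fun y => by simp [spTau_apply, hu]
    rw [e]; exact S.one_mem
  have hv0 : v ≠ 0 := fun h0 => hspan (by rw [h0]; exact Submodule.zero_mem _)
  have hex : ∀ {y : V}, y ≠ 0 → ∃ z ∈ (⊤ : Submodule F V), β y z ≠ 0 := fun {y} hy => by
    by_contra hcon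
    push Not at hcon
    exact hy (sympBil_nondegenerate.1 y fun z => hcon z trivial)
  obtain ⟨z, -, hz1, hz2⟩ := exists_ne_zero_of_two (φ := β v) (ψ := β u) (hex hv0) (hex hu)
  exact move (move hcentre hz1) (by rw [spB_swap u z]; exact neg_ne_zero.2 hz2) c

end Transv

/-- The normaliser of a group of symplectic type and minus type is maximal in `Sp_4(p)`. -/
theorem spGL_symplecticType_maximal_two [Fintype F] (hodd : Odd (Fintype.card F)) {p : ℕ}
    (hp : p.Prime) (hc : Fintype.card F = p) {R : Subgroup (GL (Fin 2 ⊕ Fin 2) F)}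
    (hR : IsSymplecticTypeGroup 2 R) (hirr : ActsAbsolutelyIrreducibly (matrixSet R))
    (hle : R ≤ Cfsg.spGL 2 F) (h32 : Nat.card R = 32) (hZ : Nat.card (Subgroup.center R) = 2)
    (hm : IsOfMinusType 2 R) :
    IsMaximalIn (Cfsg.spGL 2 F) (subgroupNormalizer R ⊓ Cfsg.spGL 2 F) := by
  have : Fact p.Prime := ⟨hp⟩
  have h2 : (2 : F) ≠ 0 := Ring.two_ne_zero fun h =>
    Nat.not_even_iff_odd.2 hodd (Nat.even_iff.2 (FiniteField.even_card_of_char_two h))
  obtain ⟨G, hΓ, hG, hgen, hneg⟩ := exists_frame (minusFacts_of hR hirr hle h32 hZ hm h2) hle h2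
  refine ⟨lt_of_le_of_ne inf_le_right fun h =>
    sp4_not_le_normalizer hodd hp hc hR hirr h32 hZ (inf_eq_right.1 h), fun M hN hM => ?_⟩
  have hH := hyp_of_normalizer hΓ hG hgen hle hN hM
  rcases axes_or_all hc hH with h | h
  · exact Or.inl (le_antisymm (le_inf (le_normalizer_of_axes hH hG hgen hneg h) hM) hN)
  refine Or.inr (le_antisymm hM ?_)
  let S : Subgroup (GL (Fin 2 ⊕ Fin 2) F) :=
    { carrier := {x | x ∈ Cfsg.spGL 2 F ∧ ∀ g ∈ Cfsg.spGL 2 F, g * x * g⁻¹ ∈ M}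
      one_mem' := ⟨one_mem _, fun g _ => by simp⟩
      mul_mem' := fun {x y} hx hy => ⟨mul_mem hx.1 hy.1, fun g hg => by
        simpa [mul_assoc] using mul_mem (hx.2 g hg) (hy.2 g hg)⟩
      inv_mem' := fun {x} hx => ⟨inv_mem hx.1, fun g hg => by
        simpa [mul_assoc] using inv_mem (hx.2 g hg)⟩ }
  have hS : ∀ g ∈ Cfsg.spGL 2 F, ∀ x ∈ S, g * x * g⁻¹ ∈ S := fun g hg x hx =>
    ⟨mul_mem (mul_mem hg hx.1) (inv_mem hg), fun k hk => by
      simpa [mul_assoc] using hx.2 (k * g) (mul_mem hk hg)⟩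
  have hG0 : G 0 ∈ S := ⟨hle (hG 0), fun g hg => by
    obtain ⟨k, hk, hke⟩ := hH.orbit_unit (h (act (fun i => (G i : M4 F)) g (ax 0))
      (by rw [hΓ.dot_act hg, dot_ax_ax]))
    rw [hΓ.vec_act hg, vec_ax] at hke
    rwa [show g * G 0 * g⁻¹ = k from Units.ext (by simp only [Units.val_mul]; exact hke.symm)]⟩
  have hne : (G 0 : M4 F) ≠ 1 ∧ (G 0 : M4 F) ≠ -1 := by
    have e := hΓ.anti 0 1 (by decide)
    have h1 := hΓ.sq 1
    have key : ∀ s : F, (G 0 : M4 F) = s • (1 : M4 F) → False := fun s hs => by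
      simp only [hs, mul_smul_comm, smul_mul_assoc, one_mul, mul_one] at e
      have h0 : (2 * s) • (1 : M4 F) = 0 := by
        have e' := congrArg (· * (G 1 : M4 F)) e
        simp only [smul_mul_assoc, neg_mul, h1] at e'
        linear_combination (norm := module) e'
      have hs0 : s = 0 := by
        have := congrFun (congrFun h0 (Sum.inl 0)) (Sum.inl 0)
        simpa [h2] using this
      have h00 := hΓ.sq 0
      simp [hs, hs0] at h00
    exact ⟨fun h' => key 1 (by rw [one_smul, h']), fun h' => key (-1) (by rw [neg_one_smul, h'])⟩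
  intro x hx
  simpa using (spGL_le_of_involution h2 hS hG0 (hle (hG 0)) (hΓ.sq 0) hne.1 hne.2 hx).2 1 (one_mem _)

end Cfsg.Agent.GeoLow.C6
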