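import Cfsg.Agent.GeoLow.SympFourC6.Trans

/-!
If every triple of involutions is monomial, the orbit of the axes consists of axes: an element
commuting with a sign change is monomial, and a power of the product of a sign change with the
reflection at a vector of the orbit is such an element.
-/

set_option autoImplicit false

namespace Cfsg.Agent.GeoLow.C6

open Matrix Cfsg.Agent.Elusive25
open scoped MatrixGroups

variable {F : Type*} [Field F]

lemma qu_add (a b c : M4 F) (s u v w s' u' v' w' : F) :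
    qu a b c s u v w + qu a b c s' u' v' w' = qu a b c (s + s') (u + u') (v + v') (w + w') := by
  simp only [qu]; module

lemma qu_smul (a b c : M4 F) (k s u v w : F) :
    k • qu a b c s u v w = qu a b c (k * s) (k * u) (k * v) (k * w) := by
  simp only [qu]; module

/-- The action as a permutation of the vectors. -/
def rho {Γ : Fin 5 → M4 F} {M : Subgroup (GL (Fin 2 ⊕ Fin 2) F)} (hH : Hyp Γ M) :
    M →* Equiv.Perm (Fin 5 → F) where
  toFun g :=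
    { toFun := act Γ (g : GL (Fin 2 ⊕ Fin 2) F)
      invFun := act Γ (g : GL (Fin 2 ⊕ Fin 2) F)⁻¹
      left_inv := fun x => hH.frame.act_inv_cancel (hH.le g.2) x
      right_inv := fun x => hH.frame.act_cancel_inv (hH.le g.2) x }
  map_one' := Equiv.ext fun x => hH.frame.act_one x
  map_mul' g h := Equiv.ext fun x => hH.frame.act_mul (hH.le h.2) x

lemma rho_apply {Γ : Fin 5 → M4 F} {M : Subgroup (GL (Fin 2 ⊕ Fin 2) F)} (hH : Hyp Γ M) (g : M)
    (x : Fin 5 → F) : rho hH g x = act Γ (g : GL (Fin 2 ⊕ Fin 2) F) x := rfl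

lemma axis_eq {w : Fin 5 → F} (hw : IsAxis w) (h1 : dot w w = 1) :
    ∃ j, ∃ s : F, (s = 1 ∨ s = -1) ∧ w = s • ax j := by
  obtain ⟨i, hi⟩ := hw
  have hwi : w = w i • ax i := by
    funext j
    by_cases hj : j = i
    · subst hj; simp [ax]
    · simp [hi j hj, ax, hj]
  refine ⟨i, w i, mul_self_eq_one_iff.1 ?_, hwi⟩
  rw [← h1, dot, Finset.sum_eq_single i (fun j _ hj => by rw [hi j hj, zero_mul]) (by simp)]

lemma ax_ne {i l : Fin 5} (h : l ≠ i) : (ax i : Fin 5 → F) l = 0 := Pi.single_eq_of_ne h 1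

lemma exists_five : ∀ i j k l : Fin 5, i ≠ j → i ≠ k → i ≠ l → j ≠ k → j ≠ l → k ≠ l →
    ∃ π : Equiv.Perm (Fin 5), π 0 = i ∧ π 1 = j ∧ π 3 = k ∧ π 4 = l := by
  decide +kernel

lemma exists_three_even : ∀ a b c : Fin 5, (a : ℕ) < 3 → (b : ℕ) < 3 → (c : ℕ) < 3 → a ≠ b →
    b ≠ c → a ≠ c → ∃ π : Equiv.Perm (Fin 5), Equiv.Perm.sign π = 1 ∧ π 0 = a ∧ π 1 = b ∧
      π 2 = c := by
  decide +kernel

/-- The hypothesis that every triple is monomial. -/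
structure MonoAll (Γ : Fin 5 → M4 F) (M : Subgroup (GL (Fin 2 ⊕ Fin 2) F)) : Prop where
  hyp : Hyp Γ M
  three : (3 : F) ≠ 0
  mono : ∀ π : Equiv.Perm (Fin 5), Mono (Γ ∘ π) M

namespace MonoAll

variable {Γ : Fin 5 → M4 F} {M : Subgroup (GL (Fin 2 ⊕ Fin 2) F)} (hA : MonoAll Γ M)
include hA

lemma reindex (π : Equiv.Perm (Fin 5)) : MonoAll (Γ ∘ π) M :=
  ⟨hA.hyp.reindex π, hA.three, fun π' => hA.mono (π * π')⟩

/-- An element stabilising the triple sends the first axis to an axis. -/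
lemma first_axis {c : GL (Fin 2 ⊕ Fin 2) F} (hc : c ∈ M)
    (hW : ∀ x : Fin 5 → F, x 3 = 0 → x 4 = 0 → act Γ c x 3 = 0 ∧ act Γ c x 4 = 0) :
    IsAxis (act Γ c (ax 0)) := by
  have hH := hA.hyp
  have hΓ := hH.frame
  have h2 := hΓ.two
  have h3 := hΓ.three (show (0 : Fin 5) ≠ 1 by decide) (show (1 : Fin 5) ≠ 2 by decide)
    (show (0 : Fin 5) ≠ 2 by decide)
  obtain ⟨u, hu, hue⟩ := hH.cyc 0 1 2 (by decide) (by decide) (by decide)
  obtain ⟨x, hx, hxe, -⟩ := hH.flip_val (show (0 : Fin 5) ≠ 1 by decide)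
  have hK : ∀ i : Fin 5, (i : ℕ) < 3 → act Γ c (ax i) 3 = 0 ∧ act Γ c (ax i) 4 = 0 := fun i hi =>
    hW _ (ax_ne (by omega)) (ax_ne (by omega))
  have hconj : ∀ i, (c : M4 F) * Γ i * ((c⁻¹ : GL (Fin 2 ⊕ Fin 2) F) : M4 F) =
      vec Γ (act Γ c (ax i)) := fun i => by rw [hΓ.vec_act (hH.le hc), vec_ax]
  have hprod : ∀ i j : Fin 5, (i : ℕ) < 3 → (j : ℕ) < 3 → ∃ s u v w : F,
      (c : M4 F) * (Γ i * Γ j) * ((c⁻¹ : GL (Fin 2 ⊕ Fin 2) F) : M4 F) =
        qu (Γ 0) (Γ 1) (Γ 2) s u v w := fun i j hi hj => by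
    refine ⟨_, _, _, _, Eq.trans ?_ (vec_mul_vec hΓ (hK i hi).1 (hK i hi).2 (hK j hj).1 (hK j hj).2)⟩
    rw [← hconj, ← hconj]
    simp only [mul_assoc, Units.inv_mul_cancel_left]
  have inQ : ∀ g ∈ M, (∃ s u v w : F, (g : M4 F) = qu (Γ 0) (Γ 1) (Γ 2) s u v w) →
      InQ (Γ 0) (Γ 1) (Γ 2) g := by
    rintro g hg ⟨s, u, v, w, he⟩
    exact ⟨s, u, v, w, norm_of_mem hΓ (by decide) (by decide) (by decide) (hH.le hg) he, he⟩
  have hg : InQ (Γ 0) (Γ 1) (Γ 2) (c * u * c⁻¹) := by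
    refine inQ _ (mul_mem (mul_mem hc hu) (inv_mem hc)) ?_
    obtain ⟨a1, a2, a3, a4, ea⟩ := hprod 0 1 (by decide) (by decide)
    obtain ⟨b1, b2, b3, b4, eb⟩ := hprod 1 2 (by decide) (by decide)
    obtain ⟨c1, c2, c3, c4, ec⟩ := hprod 2 0 (by decide) (by decide)
    refine ⟨2⁻¹ + 2⁻¹ * (a1 + b1 + c1), 2⁻¹ * (a2 + b2 + c2), 2⁻¹ * (a3 + b3 + c3),
      2⁻¹ * (a4 + b4 + c4), ?_⟩
    rw [Units.val_mul, Units.val_mul, hue]
    have hexp : (c : M4 F) * qu (Γ 0) (Γ 1) (Γ 2) (2⁻¹ : F) 2⁻¹ 2⁻¹ 2⁻¹ *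
        ((c⁻¹ : GL (Fin 2 ⊕ Fin 2) F) : M4 F) = (2⁻¹ : F) • (1 : M4 F) +
        (2⁻¹ : F) • ((c : M4 F) * (Γ 0 * Γ 1) * ((c⁻¹ : GL (Fin 2 ⊕ Fin 2) F) : M4 F)) +
        (2⁻¹ : F) • ((c : M4 F) * (Γ 1 * Γ 2) * ((c⁻¹ : GL (Fin 2 ⊕ Fin 2) F) : M4 F)) +
        (2⁻¹ : F) • ((c : M4 F) * (Γ 2 * Γ 0) * ((c⁻¹ : GL (Fin 2 ⊕ Fin 2) F) : M4 F)) := by
      rw [qu]
      simp only [mul_add, add_mul, mul_smul_comm, smul_mul_assoc, mul_one, Units.mul_inv]
    rw [hexp, ea, eb, ec]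
    simp only [qu]
    module
  have hh : InQ (Γ 0) (Γ 1) (Γ 2) (c * x * c⁻¹) := by
    refine inQ _ (mul_mem (mul_mem hc hx) (inv_mem hc)) ?_
    obtain ⟨a1, a2, a3, a4, ea⟩ := hprod 0 1 (by decide) (by decide)
    exact ⟨a1, a2, a3, a4, by rw [Units.val_mul, Units.val_mul, hxe, ea]⟩
  have hxx : ((x⁻¹ : GL (Fin 2 ⊕ Fin 2) F) : M4 F) = -(Γ 0 * Γ 1) := by
    refine Units.inv_eq_of_mul_eq_one_right ?_
    rw [hxe, mul_neg, mul_assoc, h3.ba', h3.bb, mul_neg, mul_one, neg_neg, h3.aa]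
  have hux : (u : M4 F) * (Γ 0 * Γ 1) = Γ 2 * Γ 0 * (u : M4 F) := by
    have hb := cycle_conj (F := F) h3.rotate
    rw [qu_rotate h3] at hb
    rw [hue, ← mul_assoc, cycle_conj h3, mul_assoc (Γ 2), hb, ← mul_assoc]
  have hcomm : ((u * x * u⁻¹ * x⁻¹ : GL (Fin 2 ⊕ Fin 2) F) : M4 F) = Γ 1 * Γ 2 := by
    rw [Units.val_mul, Units.val_mul, Units.val_mul, hxe, hux, Units.mul_inv_cancel_right, hxx,
      mul_neg, mul_assoc, h3.aa', h3.cb, neg_neg]
  have hq : c * u * c⁻¹ * (c * x * c⁻¹) * (c * u * c⁻¹)⁻¹ * (c * x * c⁻¹)⁻¹ =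
      c * (u * x * u⁻¹ * x⁻¹) * c⁻¹ := by group
  have hm := hA.mono 1 (c * u * c⁻¹) (c * x * c⁻¹) (mul_mem (mul_mem hc hu) (inv_mem hc))
    (mul_mem (mul_mem hc hx) (inv_mem hc))
  simp only [Equiv.Perm.coe_one, Function.comp_id] at hm
  have hm' := hm hg hh (by
    rw [hq, Units.val_mul, Units.val_mul, hcomm]
    calc (c : M4 F) * (Γ 1 * Γ 2) * ((c⁻¹ : GL (Fin 2 ⊕ Fin 2) F) : M4 F) *
          ((c : M4 F) * (Γ 1 * Γ 2) * ((c⁻¹ : GL (Fin 2 ⊕ Fin 2) F) : M4 F))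
        = (c : M4 F) * (Γ 1 * Γ 2 * (Γ 1 * Γ 2)) * ((c⁻¹ : GL (Fin 2 ⊕ Fin 2) F) : M4 F) := by
          simp only [mul_assoc, Units.inv_mul_cancel_left]
      _ = -1 := by
          rw [mul_assoc (Γ 1) (Γ 2), h3.cb', h3.cc, mul_neg, mul_one, h3.bb, mul_neg_one, neg_mul,
            Units.mul_inv])
  rw [hq, Units.val_mul, Units.val_mul, hcomm] at hm'
  obtain ⟨w, hw⟩ : ∃ w, w = act Γ c (ax 0) := ⟨_, rfl⟩
  obtain ⟨hw3, hw4⟩ := hw ▸ hK 0 (by decide)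
  have hcw : vec Γ w * ((c : M4 F) * (Γ 1 * Γ 2) * ((c⁻¹ : GL (Fin 2 ⊕ Fin 2) F) : M4 F)) =
      (c : M4 F) * (Γ 1 * Γ 2) * ((c⁻¹ : GL (Fin 2 ⊕ Fin 2) F) : M4 F) * vec Γ w := by
    rw [hw, ← hconj]
    simp only [mul_assoc, Units.inv_mul_cancel_left]
    rw [← mul_assoc (Γ 0) (Γ 1), show Γ 0 * Γ 1 = -(Γ 1 * Γ 0) by rw [h3.ba, neg_neg], neg_mul,
      mul_assoc (Γ 1), ← mul_assoc (Γ 0) (Γ 2), show Γ 0 * Γ 2 = -(Γ 2 * Γ 0) by rw [h3.ca, neg_neg],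
      neg_mul]
    simp only [mul_neg, neg_neg, mul_assoc]
  have key : ∀ p q : Fin 5, p ≠ q →
      ((c : M4 F) * (Γ 1 * Γ 2) * ((c⁻¹ : GL (Fin 2 ⊕ Fin 2) F) : M4 F) = Γ p * Γ q ∨
        (c : M4 F) * (Γ 1 * Γ 2) * ((c⁻¹ : GL (Fin 2 ⊕ Fin 2) F) : M4 F) = -(Γ p * Γ q)) →
      w p = 0 ∧ w q = 0 := by
    intro p q hpq he
    obtain ⟨g, -, hge, hga⟩ := hH.flip_val hpq
    have hfix : act Γ g w = w := hΓ.act_eq (by
      rw [hge]
      rcases he with e | e <;> rw [e] at hcw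
      · exact hcw.symm
      · rw [mul_neg, neg_mul, neg_inj] at hcw; exact hcw.symm)
    have e : ∀ l, (l = p ∨ l = q) → w l = 0 := fun l hl => by
      have h := congrFun hfix l
      rw [hga, if_pos hl] at h
      exact (mul_eq_zero.1 (show (2 : F) * w l = 0 by linear_combination -h)).resolve_left h2
    exact ⟨e p (Or.inl rfl), e q (Or.inr rfl)⟩
  rw [← hw]
  simp only [Set.mem_insert_iff, Set.mem_singleton_iff] at hm'
  have fin : ∀ p q r : Fin 5, w p = 0 ∧ w q = 0 → (∀ l, l ≠ r → l = p ∨ l = q ∨ l = 3 ∨ l = 4) →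
      IsAxis w := fun p q r k hr => ⟨r, fun l hl => by
    rcases hr l hl with rfl | rfl | rfl | rfl
    exacts [k.1, k.2, hw3, hw4]⟩
  rcases hm' with e | e | e | e | e | e
  exacts [fin 0 1 2 (key 0 1 (by decide) (Or.inl e)) (by decide),
    fin 0 1 2 (key 0 1 (by decide) (Or.inr e)) (by decide),
    fin 1 2 0 (key 1 2 (by decide) (Or.inl e)) (by decide),
    fin 1 2 0 (key 1 2 (by decide) (Or.inr e)) (by decide),
    fin 2 0 1 (key 2 0 (by decide) (Or.inl e)) (by decide),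
    fin 2 0 1 (key 2 0 (by decide) (Or.inr e)) (by decide)]

/-- An element stabilising the triple is monomial on it. -/
lemma triple_axis {c : GL (Fin 2 ⊕ Fin 2) F} (hc : c ∈ M)
    (hW : ∀ x : Fin 5 → F, x 3 = 0 → x 4 = 0 → act Γ c x 3 = 0 ∧ act Γ c x 4 = 0) {i : Fin 5}
    (hi : (i : ℕ) < 3) : IsAxis (act Γ c (ax i)) := by
  obtain ⟨π, hπ⟩ : ∃ π : Equiv.Perm (Fin 5), π = Equiv.swap 0 i := ⟨_, rfl⟩
  have hπ34 : π 3 = 3 ∧ π 4 = 4 ∧ π.symm i = 0 := by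
    subst hπ; revert i; decide +kernel
  refine isAxis_comp π ?_
  rw [← act_comp, ax_comp, hπ34.2.2]
  refine (hA.reindex π).first_axis hc fun y hy3 hy4 => ?_
  obtain ⟨x, rfl⟩ : ∃ x, x ∘ π = y := ⟨y ∘ π.symm, by funext l; simp⟩
  simp only [Function.comp_apply, hπ34.1, hπ34.2.1] at hy3 hy4
  simp only [act_comp, Function.comp_apply, hπ34.1, hπ34.2.1]
  exact hW x hy3 hy4

/-- An element stabilising the triple is monomial outside it. -/
lemma outer_axis {c : GL (Fin 2 ⊕ Fin 2) F} (hc : c ∈ M)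
    (hW : ∀ x : Fin 5 → F, x 3 = 0 → x 4 = 0 → act Γ c x 3 = 0 ∧ act Γ c x 4 = 0) :
    IsAxis (act Γ c (ax 3)) := by
  have hH := hA.hyp
  have hΓ := hH.frame
  -- the images of the triple
  have hax : ∀ i : Fin 5, (i : ℕ) < 3 →
      ∃ j : Fin 5, (j : ℕ) < 3 ∧ (act Γ c (ax i) = ax j ∨ act Γ c (ax i) = -(ax j)) := by
    intro i hi
    obtain ⟨j, s, hs, he⟩ := axis_eq (hA.triple_axis hc hW hi)
      (by rw [hΓ.dot_act (hH.le hc), dot_ax_ax])
    have h34 := hW (ax i) (ax_ne (by omega)) (ax_ne (by omega))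
    rw [he] at h34
    refine ⟨j, ?_, ?_⟩
    · by_contra hj
      have hj' : j = 3 ∨ j = 4 := by omega
      rcases hs with rfl | rfl <;> rcases hj' with rfl | rfl <;> simp [ax] at h34
    · rcases hs with rfl | rfl <;> simp [he]
  obtain ⟨a, ha, ea⟩ := hax 0 (by decide)
  obtain ⟨b, hb, eb⟩ := hax 1 (by decide)
  obtain ⟨d, hd, ed⟩ := hax 2 (by decide)
  have hne : ∀ {i j k l : Fin 5}, i ≠ j → (act Γ c (ax i) = ax k ∨ act Γ c (ax i) = -(ax k)) →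
      (act Γ c (ax j) = ax l ∨ act Γ c (ax j) = -(ax l)) → k ≠ l := by
    rintro i j k l hij e e' rfl
    have h := hΓ.dot_act (hH.le hc) (ax i) (ax j)
    rw [dot_ax (ax i) j, ax_ne (Ne.symm hij)] at h
    rcases e with e | e <;> rcases e' with e' | e' <;> rw [e, e'] at h <;>
      simp [dot, ax, Pi.single_apply] at h
  obtain ⟨π, hπ, hπ0, hπ1, hπ2⟩ := exists_three_even a b d ha hb hd (hne (by decide) ea eb)
    (hne (by decide) eb ed) (hne (by decide) ea ed)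
  obtain ⟨m, hm, hme⟩ := hH.perm_act (Equiv.Perm.mem_alternatingGroup.2 hπ)
  have hinv : ∀ (y : Fin 5 → F) i, act Γ m⁻¹ y i = y (π i) := fun y i => by
    rw [← hme (act Γ m⁻¹ y) i, hΓ.act_cancel_inv (hH.le hm)]
  -- signed identity
  obtain ⟨c₁, hc₁, hs, hback⟩ : ∃ c₁ ∈ M, (∀ i : Fin 5, (i : ℕ) < 3 →
      act Γ c₁ (ax i) = ax i ∨ act Γ c₁ (ax i) = -(ax i)) ∧
      (IsAxis (act Γ c₁ (ax 3)) → IsAxis (act Γ c (ax 3))) := by
    refine ⟨m⁻¹ * c, mul_mem (inv_mem hm) hc, fun i hi => ?_, fun h => ?_⟩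
    · have e1 : act Γ m⁻¹ (ax (π i)) = ax i := by
        funext l
        rw [hinv]
        simp [ax, Pi.single_apply, π.injective.eq_iff]
      have e2 : act Γ c (ax i) = ax (π i) ∨ act Γ c (ax i) = -(ax (π i)) := by
        have : i = 0 ∨ i = 1 ∨ i = 2 := by omega
        rcases this with rfl | rfl | rfl
        exacts [hπ0 ▸ ea, hπ1 ▸ eb, hπ2 ▸ ed]
      rw [hΓ.act_mul (hH.le hc)]
      rcases e2 with e2 | e2 <;> simp [e2, e1, Frame.act_neg]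
    · rw [hΓ.act_mul (hH.le hc)] at h
      refine isAxis_comp π ?_
      obtain ⟨i, hi⟩ := h
      exact ⟨i, fun l hl => by have := hi l hl; rwa [hinv] at this⟩
  refine hback ?_
  clear hback
  have fix : ∀ (i : Fin 5), (i : ℕ) < 3 → ∀ c₁ ∈ M, (∀ j : Fin 5, (j : ℕ) < 3 →
      act Γ c₁ (ax j) = ax j ∨ act Γ c₁ (ax j) = -(ax j)) → ∃ c₂ ∈ M, act Γ c₂ (ax i) = ax i ∧
      (∀ j : Fin 5, (j : ℕ) < 3 → j ≠ i → act Γ c₂ (ax j) = act Γ c₁ (ax j)) ∧
      (∀ j : Fin 5, (j : ℕ) < 3 → act Γ c₂ (ax j) = ax j ∨ act Γ c₂ (ax j) = -(ax j)) ∧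
      (IsAxis (act Γ c₂ (ax 3)) → IsAxis (act Γ c₁ (ax 3))) := by
    intro i hi c₁ hc₁ hs
    rcases hs i hi with e | e
    · exact ⟨c₁, hc₁, e, fun _ _ _ => rfl, hs, id⟩
    have hi3 : i ≠ 3 := by rintro rfl; simp at hi
    obtain ⟨γ, hγ, hγe⟩ := hH.flip hi3
    refine ⟨γ * c₁, mul_mem hγ hc₁, ?_, fun j hj hji => ?_, fun j hj => ?_, fun h => ?_⟩
    · rw [hΓ.act_mul (hH.le hc₁), e]
      funext l
      rw [hγe]
      by_cases hl : l = i
      · subst hl; simp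
      · by_cases hl3 : l = 3 <;> simp [hl, hl3, ax, Ne.symm hi3]
    · rw [hΓ.act_mul (hH.le hc₁)]
      funext l
      rw [hγe]
      by_cases hl : l = i ∨ l = 3
      · rw [if_pos hl]
        have : act Γ c₁ (ax j) l = 0 := by
          have hlj : l ≠ j := by rintro rfl; rcases hl with rfl | rfl; exacts [hji rfl, by simp at hj]
          rcases hs j hj with e' | e' <;> rw [e'] <;> simp [ax, hlj]
        rw [this, neg_zero]
      · rw [if_neg hl]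
    · rw [hΓ.act_mul (hH.le hc₁)]
      by_cases hji : j = i
      · subst hji
        left
        rw [e]
        funext l
        rw [hγe]
        by_cases hl : l = j
        · subst hl; simp
        · by_cases hl3 : l = 3 <;> simp [hl, hl3, ax, Ne.symm hi3]
      · have hlj : ∀ l, l = i ∨ l = 3 → l ≠ j := by
          rintro l (rfl | rfl) rfl
          exacts [hji rfl, by simp at hj]
        have hfix : act Γ γ (act Γ c₁ (ax j)) = act Γ c₁ (ax j) := by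
          funext l
          rw [hγe]
          split_ifs with hl
          · rcases hs j hj with e' | e' <;> rw [e'] <;> simp [ax, hlj l hl]
          · rfl
        rw [hfix]; exact hs j hj
    · rw [hΓ.act_mul (hH.le hc₁)] at h
      obtain ⟨k, hk⟩ := h
      refine ⟨k, fun l hl => ?_⟩
      have := hk l hl
      rw [hγe] at this
      split_ifs at this
      · exact neg_eq_zero.1 this
      · exact this
  obtain ⟨d₀, hd₀, f0, -, s0, b0⟩ := fix 0 (by decide) c₁ hc₁ hs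
  obtain ⟨d₁, hd₁, f1, o1, s1, b1⟩ := fix 1 (by decide) d₀ hd₀ s0
  obtain ⟨d₂, hd₂, f2, o2, -, b2⟩ := fix 2 (by decide) d₁ hd₁ s1
  refine b0 (b1 (b2 ?_))
  have g1 : act Γ d₂ (ax 1) = ax 1 := (o2 1 (by decide) (by decide)).trans f1
  -- the other triple
  obtain ⟨π', h0, h1, h3, h4⟩ := exists_five 3 4 1 2 (by decide) (by decide) (by decide) (by decide)
    (by decide) (by decide)
  refine isAxis_comp π' ?_
  rw [← act_comp, ax_comp, show π'.symm 3 = 0 from π'.symm_apply_eq.2 h0.symm]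
  refine (hA.reindex π').first_axis hd₂ fun y hy3 hy4 => ?_
  obtain ⟨x, rfl⟩ : ∃ x, x ∘ π' = y := ⟨y ∘ π'.symm, by funext l; simp⟩
  simp only [Function.comp_apply, h3, h4] at hy3 hy4
  simp only [act_comp, Function.comp_apply, h3, h4]
  exact ⟨by rw [← dot_ax (act Γ d₂ x) 1, ← g1, hΓ.dot_act (hH.le hd₂), dot_ax, hy3],
    by rw [← dot_ax (act Γ d₂ x) 2, ← f2, hΓ.dot_act (hH.le hd₂), dot_ax, hy4]⟩

/-- An element stabilising the triple is monomial. -/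
lemma all_axis {c : GL (Fin 2 ⊕ Fin 2) F} (hc : c ∈ M)
    (hW : ∀ x : Fin 5 → F, x 3 = 0 → x 4 = 0 → act Γ c x 3 = 0 ∧ act Γ c x 4 = 0) (i : Fin 5) :
    IsAxis (act Γ c (ax i)) := by
  by_cases hi : (i : ℕ) < 3
  · exact hA.triple_axis hc hW hi
  have : i = 3 ∨ i = 4 := by omega
  rcases this with rfl | rfl
  · exact hA.outer_axis hc hW
  refine isAxis_comp (Equiv.swap 3 4) ?_
  rw [← act_comp, ax_comp, Equiv.symm_swap, Equiv.swap_apply_right]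
  refine (hA.reindex _).outer_axis hc fun y hy3 hy4 => ?_
  obtain ⟨x, rfl⟩ : ∃ x, x ∘ (Equiv.swap 3 4 : Equiv.Perm (Fin 5)) = y :=
    ⟨y ∘ (Equiv.swap 3 4 : Equiv.Perm (Fin 5)), by funext l; simp⟩
  simp only [Function.comp_apply, Equiv.swap_apply_left, Equiv.swap_apply_right] at hy3 hy4
  simp only [act_comp, Function.comp_apply, Equiv.swap_apply_left, Equiv.swap_apply_right]
  exact (hW x hy4 hy3).symm

end MonoAll

end Cfsg.Agent.GeoLow.C6
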