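import Cfsg.Agent.GeoLow.SympFourC6.Triple

/-!
An overgroup of the frame normaliser acting on the five coordinates: signed permutations, the
orbit of the axes, and the elements of a triple.
-/

set_option autoImplicit false

namespace Cfsg.Agent.GeoLow.C6

open Matrix Cfsg.Agent.Elusive25
open scoped MatrixGroups

variable {F : Type*} [Field F]

/-- The standing hypotheses on an overgroup. -/
structure Hyp (Γ : Fin 5 → M4 F) (M : Subgroup (GL (Fin 2 ⊕ Fin 2) F)) : Prop where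
  frame : Frame Γ
  le : M ≤ Cfsg.spGL 2 F
  mem : ∀ i, ∃ g ∈ M, (g : M4 F) = Γ i
  cyc : ∀ i j k, i ≠ j → j ≠ k → i ≠ k →
    ∃ g ∈ M, (g : M4 F) = qu (Γ i) (Γ j) (Γ k) (2⁻¹ : F) 2⁻¹ 2⁻¹ 2⁻¹

/-- The orbit of the axes. -/
def InOrbit (Γ : Fin 5 → M4 F) (M : Subgroup (GL (Fin 2 ⊕ Fin 2) F)) (v : Fin 5 → F) : Prop :=
  ∃ g ∈ M, ∃ i, act Γ g (ax i) = v

/-- A vector with at most one non-zero coordinate. -/
def IsAxis (v : Fin 5 → F) : Prop := ∃ i, ∀ j, j ≠ i → v j = 0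

/-- All norm-one quaternions of the first three involutions lie in the group. -/
def Full (Γ : Fin 5 → M4 F) (M : Subgroup (GL (Fin 2 ⊕ Fin 2) F)) : Prop :=
  ∀ s u v w : F, s * s + u * u + v * v + w * w = 1 →
    ∃ g ∈ M, (g : M4 F) = qu (Γ 0) (Γ 1) (Γ 2) s u v w

/-- Commutators of order four among the quaternions of the first three involutions are monomial. -/
def Mono (Γ : Fin 5 → M4 F) (M : Subgroup (GL (Fin 2 ⊕ Fin 2) F)) : Prop :=
  ∀ g h : GL (Fin 2 ⊕ Fin 2) F, g ∈ M → h ∈ M → InQ (Γ 0) (Γ 1) (Γ 2) g →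
    InQ (Γ 0) (Γ 1) (Γ 2) h →
    ((g * h * g⁻¹ * h⁻¹ : GL (Fin 2 ⊕ Fin 2) F) : M4 F) *
      ((g * h * g⁻¹ * h⁻¹ : GL (Fin 2 ⊕ Fin 2) F) : M4 F) = -1 →
    ((g * h * g⁻¹ * h⁻¹ : GL (Fin 2 ⊕ Fin 2) F) : M4 F) ∈
      ({Γ 0 * Γ 1, -(Γ 0 * Γ 1), Γ 1 * Γ 2, -(Γ 1 * Γ 2), Γ 2 * Γ 0, -(Γ 2 * Γ 0)} : Set (M4 F))

section Relabel

variable {Γ : Fin 5 → M4 F} {M : Subgroup (GL (Fin 2 ⊕ Fin 2) F)} (π : Equiv.Perm (Fin 5))

lemma vec_comp (v : Fin 5 → F) : vec (Γ ∘ π) (v ∘ π) = vec Γ v :=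
  Equiv.sum_comp π (fun i => v i • Γ i)

lemma act_comp (g : GL (Fin 2 ⊕ Fin 2) F) (v : Fin 5 → F) :
    act (Γ ∘ π) g (v ∘ π) = act Γ g v ∘ π := by
  funext i
  simp [act, coord, vec_comp]

lemma ax_comp (i : Fin 5) : (ax i : Fin 5 → F) ∘ π = ax (π.symm i) := by
  funext j
  simp [ax, Pi.single_apply, Equiv.eq_symm_apply]

lemma dot_comp (v w : Fin 5 → F) : dot (v ∘ π) (w ∘ π) = dot v w :=
  Equiv.sum_comp π (fun i => v i * w i)

lemma inOrbit_comp {v : Fin 5 → F} (h : InOrbit Γ M v) : InOrbit (Γ ∘ π) M (v ∘ π) := by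
  obtain ⟨g, hg, i, hi⟩ := h
  exact ⟨g, hg, π.symm i, by rw [← ax_comp, act_comp, hi]⟩

lemma isAxis_comp {v : Fin 5 → F} (h : IsAxis (v ∘ π)) : IsAxis v := by
  obtain ⟨i, hi⟩ := h
  exact ⟨π i, fun j hj => by simpa using hi (π.symm j) fun e => hj (by rw [← e, Equiv.apply_symm_apply])⟩

lemma Hyp.reindex (hH : Hyp Γ M) : Hyp (Γ ∘ π) M :=
  ⟨hH.frame.reindex π, hH.le, fun i => hH.mem (π i), fun i j k h1 h2 h3 =>
    hH.cyc (π i) (π j) (π k) (π.injective.ne h1) (π.injective.ne h2) (π.injective.ne h3)⟩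

end Relabel

lemma three_cycle_form : ∀ σ : Equiv.Perm (Fin 5), σ.support.card = 3 →
    ∃ i j k : Fin 5, i ≠ j ∧ j ≠ k ∧ i ≠ k ∧ σ = Equiv.swap i k * Equiv.swap k j := by
  decide +kernel

lemma qu_comm {A : Type*} [Ring A] [Algebra F A] {a b c d : A} (ha : a * d = -(d * a))
    (hb : b * d = -(d * b)) (hc : c * d = -(d * c)) (s u v w : F) :
    qu a b c s u v w * d = d * qu a b c s u v w := by
  have key : ∀ {x y : A}, x * d = -(d * x) → y * d = -(d * y) → x * y * d = d * (x * y) := by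
    intro x y hx hy
    rw [mul_assoc, hy, mul_neg, ← mul_assoc, hx, neg_mul, neg_neg, mul_assoc]
  simp only [qu, add_mul, mul_add, smul_mul_assoc, mul_smul_comm, one_mul, mul_one, key ha hb,
    key hb hc, key hc ha]

namespace Hyp

variable {Γ : Fin 5 → M4 F} {M : Subgroup (GL (Fin 2 ⊕ Fin 2) F)} (hH : Hyp Γ M)
include hH

lemma orbit_ax (i : Fin 5) : InOrbit Γ M (ax i) := ⟨1, one_mem M, i, hH.frame.act_one _⟩

lemma orbit_act {g : GL (Fin 2 ⊕ Fin 2) F} (hg : g ∈ M) {v : Fin 5 → F} (hv : InOrbit Γ M v) :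
    InOrbit Γ M (act Γ g v) := by
  obtain ⟨k, hk, i, rfl⟩ := hv
  exact ⟨g * k, mul_mem hg hk, i, hH.frame.act_mul (hH.le hk) _⟩

lemma orbit_of_act {g : GL (Fin 2 ⊕ Fin 2) F} (hg : g ∈ M) {v : Fin 5 → F}
    (hv : InOrbit Γ M (act Γ g v)) : InOrbit Γ M v := by
  have h := hH.orbit_act (inv_mem hg) hv
  rwa [hH.frame.act_inv_cancel (hH.le hg)] at h

lemma orbit_norm {v : Fin 5 → F} (hv : InOrbit Γ M v) : dot v v = 1 := by
  obtain ⟨k, hk, i, rfl⟩ := hv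
  rw [hH.frame.dot_act (hH.le hk), dot_ax_ax]

lemma orbit_unit {v : Fin 5 → F} (hv : InOrbit Γ M v) :
    ∃ h ∈ M, (h : M4 F) = vec Γ v := by
  obtain ⟨k, hk, i, rfl⟩ := hv
  obtain ⟨γ, hγ, hγe⟩ := hH.mem i
  refine ⟨k * γ * k⁻¹, mul_mem (mul_mem hk hγ) (inv_mem hk), ?_⟩
  rw [hH.frame.vec_act (hH.le hk), vec_ax, Units.val_mul, Units.val_mul, hγe]

lemma act_orbit {v : Fin 5 → F} (hv : InOrbit Γ M v) :
    ∃ h ∈ M, (h : M4 F) = vec Γ v ∧ ∀ x, act Γ h x = (2 * dot v x) • v - x := by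
  obtain ⟨h, hh, he⟩ := hH.orbit_unit hv
  exact ⟨h, hh, he, hH.frame.act_vec he (hH.orbit_norm hv)⟩

/-- Sign changes of two coordinates. -/
lemma flip_val {i j : Fin 5} (hij : i ≠ j) : ∃ g ∈ M, (g : M4 F) = Γ i * Γ j ∧
    ∀ (v : Fin 5 → F) (l : Fin 5), act Γ g v l = if l = i ∨ l = j then -v l else v l := by
  obtain ⟨a, ha, hav, hae⟩ := hH.act_orbit (hH.orbit_ax i)
  obtain ⟨b, hb, hbv, hbe⟩ := hH.act_orbit (hH.orbit_ax j)
  refine ⟨a * b, mul_mem ha hb, by rw [Units.val_mul, hav, hbv, vec_ax, vec_ax], fun v l => ?_⟩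
  rw [hH.frame.act_mul (hH.le hb), hbe, hae, dot_comm (ax i), dot_comm (ax j), dot_ax, dot_ax]
  simp only [Pi.sub_apply, Pi.smul_apply, smul_eq_mul, ax, Pi.single_apply]
  by_cases h1 : l = i
  · subst h1; simp [hij]; ring
  · by_cases h2 : l = j
    · subst h2; simp [h1]; ring
    · simp [h1, h2]

/-- Sign changes of two coordinates, without the value. -/
lemma flip {i j : Fin 5} (hij : i ≠ j) : ∃ g ∈ M, ∀ (v : Fin 5 → F) (l : Fin 5),
    act Γ g v l = if l = i ∨ l = j then -v l else v l := by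
  obtain ⟨g, hg, -, hge⟩ := hH.flip_val hij
  exact ⟨g, hg, hge⟩

/-- Even permutations of the coordinates. -/
lemma perm {π : Equiv.Perm (Fin 5)} (hπ : π ∈ alternatingGroup (Fin 5)) :
    ∃ g ∈ M, ∀ i, act Γ g (ax i) = ax (π i) := by
  rw [← Equiv.Perm.closure_three_cycles_eq_alternating] at hπ
  induction hπ using Subgroup.closure_induction with
  | mem σ hσ =>
    obtain ⟨i, j, k, hij, hjk, hik, rfl⟩ := three_cycle_form σ (Equiv.Perm.IsThreeCycle.card_support hσ)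
    obtain ⟨g, hg, hge⟩ := hH.cyc i j k hij hjk hik
    have h3 := hH.frame.three hij hjk hik
    refine ⟨g, hg, fun l => hH.frame.act_eq ?_⟩
    rw [hge, vec_ax, vec_ax, Equiv.Perm.mul_apply]
    by_cases hli : l = i
    · subst hli
      rw [Equiv.swap_apply_of_ne_of_ne hik hij, Equiv.swap_apply_left]
      exact cycle_conj h3
    by_cases hlj : l = j
    · subst hlj
      rw [Equiv.swap_apply_right, Equiv.swap_apply_right]
      have h := cycle_conj (F := F) h3.rotate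
      rwa [qu_rotate h3] at h
    by_cases hlk : l = k
    · subst hlk
      rw [Equiv.swap_apply_left, Equiv.swap_apply_of_ne_of_ne (Ne.symm hij) hjk]
      have h := cycle_conj (F := F) h3.rotate.rotate
      rwa [qu_rotate h3.rotate, qu_rotate h3] at h
    rw [Equiv.swap_apply_of_ne_of_ne hlk hlj, Equiv.swap_apply_of_ne_of_ne hli hlk]
    exact qu_comm (hH.frame.anti l i hli) (hH.frame.anti l j hlj) (hH.frame.anti l k hlk) _ _ _ _
  | one => exact ⟨1, one_mem M, fun i => hH.frame.act_one _⟩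
  | mul σ τ _ _ hσ hτ =>
    obtain ⟨g, hg, hge⟩ := hσ
    obtain ⟨k, hk, hke⟩ := hτ
    exact ⟨g * k, mul_mem hg hk, fun i => by
      rw [hH.frame.act_mul (hH.le hk), hke, hge, Equiv.Perm.mul_apply]⟩
  | inv σ _ hσ =>
    obtain ⟨g, hg, hge⟩ := hσ
    refine ⟨g⁻¹, inv_mem hg, fun i => ?_⟩
    have h := congrArg (act Γ g⁻¹) (hge (σ⁻¹ i))
    rw [hH.frame.act_inv_cancel (hH.le hg), ← Equiv.Perm.mul_apply, mul_inv_cancel, Equiv.Perm.one_apply] at h
    exact h.symm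

omit hH in
lemma sum_ax (v : Fin 5 → F) : ∑ i, v i • (ax i : Fin 5 → F) = v := by
  funext l
  simp [ax, Pi.single_apply, Finset.sum_apply]

omit hH in
lemma act_sum (g : GL (Fin 2 ⊕ Fin 2) F) (c : Fin 5 → F) (x : Fin 5 → Fin 5 → F) :
    act Γ g (∑ i, c i • x i) = ∑ i, c i • act Γ g (x i) := by
  simp only [Fin.sum_univ_five, Frame.act_add, Frame.act_smul]

omit hH in
/-- The image of a vector is determined by the images of the axes. -/
lemma act_expand (g : GL (Fin 2 ⊕ Fin 2) F) (v : Fin 5 → F) :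
    act Γ g v = ∑ i, v i • act Γ g (ax i) := by
  rw [← act_sum, sum_ax]

/-- An even permutation applied to any vector. -/
lemma perm_act {π : Equiv.Perm (Fin 5)} (hπ : π ∈ alternatingGroup (Fin 5)) :
    ∃ g ∈ M, ∀ (v : Fin 5 → F) i, act Γ g v (π i) = v i := by
  obtain ⟨g, hg, hge⟩ := hH.perm hπ
  refine ⟨g, hg, fun v i => ?_⟩
  rw [act_expand g v, Finset.sum_congr rfl fun j _ => by rw [hge j]]
  simp [Finset.sum_apply, ax, Pi.single_apply]

end Hyp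

end Cfsg.Agent.GeoLow.C6
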