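import Cfsg.Agent.GeoLow.SympFourC6.Setup

/-!
If some triple of involutions gives all norm-one quaternions, or over the field of three elements
the orbit leaves the axes, the orbit consists of all vectors of norm one.
-/

set_option autoImplicit false

namespace Cfsg.Agent.GeoLow.C6

open Matrix Cfsg.Agent.Elusive25
open scoped MatrixGroups

variable {F : Type*} [Field F]

section Quat

variable {Γ : Fin 5 → M4 F} (hΓ : Frame Γ)
include hΓ

/-- The adjoint of a quaternion of three of the involutions. -/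
lemma adj_qu {i j k : Fin 5} (hij : i ≠ j) (hjk : j ≠ k) (hik : i ≠ k) (s u v w : F) :
    sympAdj (qu (Γ i) (Γ j) (Γ k) s u v w) = qu (Γ i) (Γ j) (Γ k) s (-u) (-v) (-w) := by
  have h := hΓ.three hij hjk hik
  simp only [qu, map_add, sympAdj_smul, sympAdj_mul, sympAdj_one, hΓ.adj, h.ba, h.cb,
    show Γ i * Γ k = -(Γ k * Γ i) by rw [h.ca, neg_neg], smul_neg, neg_smul]

/-- A quaternion inverse to its adjoint has norm one. -/
lemma norm_of_adj {i j k : Fin 5} (hij : i ≠ j) (hjk : j ≠ k) (hik : i ≠ k) {s u v w : F}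
    (he : sympAdj (qu (Γ i) (Γ j) (Γ k) s u v w) * qu (Γ i) (Γ j) (Γ k) s u v w = 1) :
    s * s + u * u + v * v + w * w = 1 := by
  rw [adj_qu hΓ hij hjk hik, qu_mul (hΓ.three hij hjk hik)] at he
  have h2 : qu (Γ i) (Γ j) (Γ k) (s * s + u * u + v * v + w * w - 1) 0 0 0 = (0 : M4 F) := by
    simp only [qu] at he ⊢
    linear_combination (norm := module) he
  linear_combination (qu_eq_zero (hΓ.three hij hjk hik) hΓ.two h2).1

/-- A symplectic quaternion has norm one. -/
lemma norm_of_mem {i j k : Fin 5} (hij : i ≠ j) (hjk : j ≠ k) (hik : i ≠ k)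
    {g : GL (Fin 2 ⊕ Fin 2) F} (hg : g ∈ Cfsg.spGL 2 F) {s u v w : F}
    (he : (g : M4 F) = qu (Γ i) (Γ j) (Γ k) s u v w) : s * s + u * u + v * v + w * w = 1 :=
  norm_of_adj hΓ hij hjk hik (he ▸ (mem_spGL_iff_adj g).1 hg)

/-- The product of two combinations of three involutions is one of their quaternions. -/
lemma vec_mul_vec {a b : Fin 5 → F} (ha3 : a 3 = 0) (ha4 : a 4 = 0) (hb3 : b 3 = 0) (hb4 : b 4 = 0) :
    vec Γ a * vec Γ b = qu (Γ 0) (Γ 1) (Γ 2) (a 0 * b 0 + a 1 * b 1 + a 2 * b 2)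
      (a 0 * b 1 - a 1 * b 0) (a 1 * b 2 - a 2 * b 1) (a 2 * b 0 - a 0 * b 2) := by
  have h := hΓ.three (show (0 : Fin 5) ≠ 1 by decide) (show (1 : Fin 5) ≠ 2 by decide)
    (show (0 : Fin 5) ≠ 2 by decide)
  simp only [vec, Fin.sum_univ_five, ha3, ha4, hb3, hb4, zero_smul, add_zero, qu, mul_add, add_mul,
    smul_mul_assoc, mul_smul_comm, smul_smul, h.aa, h.bb, h.cc, h.ba, h.cb,
    show Γ 0 * Γ 2 = -(Γ 2 * Γ 0) by rw [h.ca, neg_neg], smul_neg]
  module

end Quat

namespace Hyp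

variable {Γ : Fin 5 → M4 F} {M : Subgroup (GL (Fin 2 ⊕ Fin 2) F)} (hH : Hyp Γ M)
include hH

/-- Fullness moves along even permutations. -/
lemma full_move (hF : Full Γ M) {π : Equiv.Perm (Fin 5)} (hπ : π ∈ alternatingGroup (Fin 5))
    (s u v w : F) (hn : s * s + u * u + v * v + w * w = 1) :
    ∃ g ∈ M, (g : M4 F) = qu (Γ (π 0)) (Γ (π 1)) (Γ (π 2)) s u v w := by
  obtain ⟨k, hk, hke⟩ := hH.perm hπ
  obtain ⟨q, hq, hqe⟩ := hF s u v w hn
  have hc : ∀ i, (k : M4 F) * Γ i * ((k⁻¹ : GL (Fin 2 ⊕ Fin 2) F) : M4 F) = Γ (π i) := fun i => by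
    rw [← vec_ax Γ i, ← hH.frame.vec_act (hH.le hk), hke, vec_ax]
  have hm : ∀ X Y : M4 F, (k : M4 F) * (X * Y) * ((k⁻¹ : GL (Fin 2 ⊕ Fin 2) F) : M4 F) =
      ((k : M4 F) * X * ((k⁻¹ : GL (Fin 2 ⊕ Fin 2) F) : M4 F)) *
      ((k : M4 F) * Y * ((k⁻¹ : GL (Fin 2 ⊕ Fin 2) F) : M4 F)) := fun X Y => by
    simp only [mul_assoc, Units.inv_mul_cancel_left]
  refine ⟨k * q * k⁻¹, mul_mem (mul_mem hk hq) (inv_mem hk), ?_⟩
  rw [Units.val_mul, Units.val_mul, hqe]
  simp only [qu, mul_add, add_mul, mul_smul_comm, smul_mul_assoc, hm, hc, mul_one, Units.mul_inv]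

/-- One full triple makes every triple full. -/
lemma full_reindex (hF : Full Γ M) (π : Equiv.Perm (Fin 5)) : Full (Γ ∘ π) M := by
  have hsw : Equiv.Perm.sign (Equiv.swap (0 : Fin 5) 1) = -1 := by decide +kernel
  rcases Int.units_eq_one_or (Equiv.Perm.sign π) with h | h
  · exact fun s u v w hn => hH.full_move hF (Equiv.Perm.mem_alternatingGroup.2 h) s u v w hn
  · intro s u v w hn
    have hπ' : π * Equiv.swap (0 : Fin 5) 1 ∈ alternatingGroup (Fin 5) := by
      rw [Equiv.Perm.mem_alternatingGroup, map_mul, h, hsw]; rfl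
    obtain ⟨g, hg, hge⟩ := hH.full_move hF hπ' s (-u) (-w) (-v) (by linear_combination hn)
    refine ⟨g, hg, hge.trans ?_⟩
    have h3 := hH.frame.three (show π 0 ≠ π 1 from π.injective.ne (by decide))
      (show π 1 ≠ π 2 from π.injective.ne (by decide)) (show π 0 ≠ π 2 from π.injective.ne (by decide))
    simp only [Equiv.Perm.mul_apply, Function.comp_apply, Equiv.swap_apply_left,
      Equiv.swap_apply_right, Equiv.swap_apply_of_ne_of_ne (show (2 : Fin 5) ≠ 0 by decide)
        (show (2 : Fin 5) ≠ 1 by decide)]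
    simp only [qu, h3.ba, h3.cb, show Γ (π 0) * Γ (π 2) = -(Γ (π 2) * Γ (π 0)) by
      rw [h3.ca, neg_neg]]
    module

variable [Fintype F]

/-- A full triple rotates vectors of equal non-zero norm into each other. -/
lemma rotate (hF : Full Γ M) {a b : Fin 5 → F} (ha3 : a 3 = 0) (ha4 : a 4 = 0) (hb3 : b 3 = 0)
    (hb4 : b 4 = 0) {r : F} (ha : dot a a = r) (hb : dot b b = r) (hab : r + dot a b ≠ 0)
    (hr : r ≠ 0) : ∃ g ∈ M, act Γ g a = b ∧ act Γ g (ax 3) = ax 3 ∧ act Γ g (ax 4) = ax 4 := by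
  have hΓ := hH.frame
  have h2 := hΓ.two
  have h3 := hΓ.three (show (0 : Fin 5) ≠ 1 by decide) (show (1 : Fin 5) ≠ 2 by decide)
    (show (0 : Fin 5) ≠ 2 by decide)
  have ha' : a 0 * a 0 + a 1 * a 1 + a 2 * a 2 = r := by
    rw [← ha]; simp [dot, Fin.sum_univ_five, ha3, ha4]
  obtain ⟨N, hN⟩ : ∃ N, N = 2 * r * (r + dot a b) := ⟨_, rfl⟩
  have hN0 : N ≠ 0 := hN ▸ mul_ne_zero (mul_ne_zero h2 hr) hab
  obtain ⟨x, y, hxy⟩ : ∃ x y : F, x * x + r * (y * y) = 1 / N := by
    obtain ⟨x, y, hxy⟩ := FiniteField.exists_root_sum_quadratic (R := F) (f := Polynomial.X ^ 2)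
      (g := Polynomial.C r * Polynomial.X ^ 2 - Polynomial.C (1 / N)) (Polynomial.degree_X_pow 2)
      (by rw [Polynomial.degree_sub_eq_left_of_degree_lt] <;> rw [Polynomial.degree_C_mul_X_pow 2 hr]
          · rfl
          · exact lt_of_le_of_lt Polynomial.degree_C_le (by norm_num))
      (FiniteField.odd_card_of_char_ne_two (fun e => h2 (by
        have h := ringChar.Nat.cast_ringChar (R := F)
        rwa [e] at h)))
    exact ⟨x, y, by simp at hxy; linear_combination hxy⟩
  obtain ⟨B, hB⟩ : ∃ B, B = qu (Γ 0) (Γ 1) (Γ 2) x (y * a 2) (y * a 0) (y * a 1) := ⟨_, rfl⟩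
  have hBa : B * vec Γ a = vec Γ a * B := by
    have hv : vec Γ a = a 0 • Γ 0 + a 1 • Γ 1 + a 2 • Γ 2 := by simp [vec, Fin.sum_univ_five, ha3, ha4]
    rw [hB, hv]
    simp only [qu, mul_add, add_mul, smul_mul_assoc, mul_smul_comm, one_mul, mul_one,
      mul_assoc, h3.aa', h3.bb', h3.ba', h3.ca', h3.cb', h3.aa, h3.bb, h3.cc, h3.ba, h3.ca,
      h3.cb, mul_neg, neg_mul, neg_neg, smul_neg]
    module
  obtain ⟨q₀, hq₀⟩ : ∃ q, q = r • (1 : M4 F) + vec Γ b * vec Γ a := ⟨_, rfl⟩
  have haa : vec Γ a * vec Γ a = r • (1 : M4 F) := by rw [hΓ.vec_sq, ha]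
  have hbb : vec Γ b * vec Γ b = r • (1 : M4 F) := by rw [hΓ.vec_sq, hb]
  have hq₀a : q₀ * vec Γ a = vec Γ b * q₀ := by
    rw [hq₀, add_mul, mul_add, mul_assoc (vec Γ b) (vec Γ a) (vec Γ a), haa,
      ← mul_assoc (vec Γ b) (vec Γ b) (vec Γ a), hbb]
    simp only [smul_mul_assoc, mul_smul_comm, one_mul, mul_one]
    abel
  obtain ⟨s₀, u₀, v₀, w₀, hq₀'⟩ : ∃ s u v w : F, q₀ = qu (Γ 0) (Γ 1) (Γ 2) s u v w := by
    refine ⟨r + (b 0 * a 0 + b 1 * a 1 + b 2 * a 2), b 0 * a 1 - b 1 * a 0,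
      b 1 * a 2 - b 2 * a 1, b 2 * a 0 - b 0 * a 2, ?_⟩
    rw [hq₀, vec_mul_vec hΓ hb3 hb4 ha3 ha4]
    simp only [qu]
    module
  have e0 : sympAdj q₀ * q₀ = N • (1 : M4 F) := by
    have hab' := hΓ.anticomm_vec a b
    calc sympAdj q₀ * q₀
        = (r • (1 : M4 F) + vec Γ a * vec Γ b) * (r • (1 : M4 F) + vec Γ b * vec Γ a) := by
          rw [hq₀, map_add, sympAdj_smul, sympAdj_one, sympAdj_mul, hΓ.adj_vec, hΓ.adj_vec]
      _ = (r * r) • (1 : M4 F) + r • (vec Γ a * vec Γ b + vec Γ b * vec Γ a) +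
            vec Γ a * (vec Γ b * vec Γ b) * vec Γ a := by
          simp only [add_mul, mul_add, smul_mul_assoc, mul_smul_comm, one_mul, mul_one, mul_assoc]
          module
      _ = N • (1 : M4 F) := by
          rw [hab', hbb, mul_smul_comm, mul_one, smul_mul_assoc, haa, hN]
          module
  have eB : sympAdj B * B = (1 / N) • (1 : M4 F) := by
    rw [hB, adj_qu hΓ (by decide) (by decide) (by decide), qu_mul h3, ← hxy]
    simp only [qu]
    match_scalars
    · linear_combination (y * y) * ha'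
    all_goals ring
  have hadj : sympAdj (q₀ * B) * (q₀ * B) = 1 := by
    rw [sympAdj_mul, mul_assoc, ← mul_assoc (sympAdj q₀), e0, smul_mul_assoc, one_mul,
      mul_smul_comm, eB, smul_smul, mul_one_div_cancel hN0, one_smul]
  obtain ⟨s, u, v, w, hq⟩ : ∃ s u v w : F, q₀ * B = qu (Γ 0) (Γ 1) (Γ 2) s u v w :=
    ⟨_, _, _, _, by rw [hq₀', hB, qu_mul h3]⟩
  rw [hq] at hadj
  obtain ⟨g, hg, hge⟩ := hF s u v w (norm_of_adj hΓ (by decide) (by decide) (by decide) hadj)
  refine ⟨g, hg, hΓ.act_eq ?_, hΓ.act_eq ?_, hΓ.act_eq ?_⟩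
  · rw [hge, ← hq, mul_assoc, hBa, ← mul_assoc, hq₀a, mul_assoc]
  · rw [hge, vec_ax]
    exact qu_comm (hΓ.anti 3 0 (by decide)) (hΓ.anti 3 1 (by decide)) (hΓ.anti 3 2 (by decide)) _ _ _ _
  · rw [hge, vec_ax]
    exact qu_comm (hΓ.anti 4 0 (by decide)) (hΓ.anti 4 1 (by decide)) (hΓ.anti 4 2 (by decide)) _ _ _ _

end Hyp

open scoped Classical in
/-- The support of a vector. -/
noncomputable def supp (v : Fin 5 → F) : Finset (Fin 5) := Finset.univ.filter fun i => v i ≠ 0

lemma mem_supp {v : Fin 5 → F} {i : Fin 5} : i ∈ supp v ↔ v i ≠ 0 := by simp [supp]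

lemma supp_comp_card (π : Equiv.Perm (Fin 5)) (v : Fin 5 → F) :
    (supp (v ∘ π)).card = (supp v).card :=
  Finset.card_equiv π fun i => by simp [supp]

lemma exists_reindex : ∀ i j k : Fin 5, i ≠ j → j ≠ k → i ≠ k →
    ∃ π : Equiv.Perm (Fin 5), π 0 = i ∧ π 1 = j ∧ π 2 = k := by
  decide +kernel

lemma small_subset : ∀ s : Finset (Fin 5), s.card ≤ 3 →
    ∃ i j k : Fin 5, i ≠ j ∧ j ≠ k ∧ i ≠ k ∧ ∀ l, l ∈ s → l = i ∨ l = j ∨ l = k := by
  decide +kernel

lemma four_subset : ∀ s : Finset (Fin 5), 4 ≤ s.card →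
    ∃ i j k l : Fin 5, i ∈ s ∧ j ∈ s ∧ k ∈ s ∧ l ∈ s ∧ i ≠ j ∧ i ≠ k ∧ i ≠ l ∧ j ≠ k ∧ j ≠ l ∧
      k ≠ l := by
  decide +kernel

lemma exists_even (i k : Fin 5) : ∃ π, π ∈ alternatingGroup (Fin 5) ∧ π i = k := by
  have h : ∀ i k : Fin 5, ∃ π : Equiv.Perm (Fin 5), Equiv.Perm.sign π = 1 ∧ π i = k := by
    decide +kernel
  obtain ⟨π, h1, h2⟩ := h i k
  exact ⟨π, Equiv.Perm.mem_alternatingGroup.2 h1, h2⟩

variable [Fintype F]

/-- A full triple makes the orbit all vectors of norm one. -/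
theorem orbit_of_full (h3 : (3 : F) ≠ 0) : ∀ (n : ℕ) (Γ : Fin 5 → M4 F)
    (M : Subgroup (GL (Fin 2 ⊕ Fin 2) F)), Hyp Γ M → Full Γ M →
    ∀ v : Fin 5 → F, (supp v).card ≤ n → dot v v = 1 → InOrbit Γ M v := by
  intro n
  induction n using Nat.strong_induction_on with
  | _ n IH =>
    intro Γ M hH hF v hvn hv
    have h2 := hH.frame.two
    by_cases hsmall : (supp v).card ≤ 3
    · obtain ⟨i, j, k, hij, hjk, hik, hsub⟩ := small_subset _ hsmall
      obtain ⟨π, hπ0, hπ1, hπ2⟩ := exists_reindex i j k hij hjk hik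
      have hzero : ∀ l, l ≠ 0 → l ≠ 1 → l ≠ 2 → (v ∘ π) l = 0 := fun l l0 l1 l2 => by
        by_contra h
        rcases hsub (π l) (mem_supp.2 h) with e | e | e
        · exact l0 (π.injective (e.trans hπ0.symm))
        · exact l1 (π.injective (e.trans hπ1.symm))
        · exact l2 (π.injective (e.trans hπ2.symm))
      have hv' : dot (v ∘ π) (v ∘ π) = 1 := (dot_comp π v v).trans hv
      suffices h : InOrbit (Γ ∘ π) M (v ∘ π) by
        have h' := inOrbit_comp π⁻¹ h
        have e1 : (Γ ∘ π) ∘ (π⁻¹ : Equiv.Perm (Fin 5)) = Γ := by funext l; simp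
        have e2 : (v ∘ π) ∘ (π⁻¹ : Equiv.Perm (Fin 5)) = v := by funext l; simp
        rwa [e1, e2] at h'
      have hH' := hH.reindex π
      have hF' := hH.full_reindex hF π
      have key : ∀ b : Fin 5 → F, b 3 = 0 → b 4 = 0 → dot b b = 1 → InOrbit (Γ ∘ π) M b →
          1 + dot (v ∘ π) b ≠ 0 → InOrbit (Γ ∘ π) M (v ∘ π) := by
        intro b hb3 hb4 hbb hbo hne
        obtain ⟨g, hg, hge, -, -⟩ := hH'.rotate hF' (hzero 3 (by decide) (by decide) (by decide))
          (hzero 4 (by decide) (by decide) (by decide)) hb3 hb4 hv' hbb hne one_ne_zero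
        exact hH'.orbit_of_act hg (hge.symm ▸ hbo)
      by_cases hne : 1 + dot (v ∘ π) (ax 0) = 0
      · obtain ⟨γ, hγ, hγe⟩ := hH'.flip (show (0 : Fin 5) ≠ 1 by decide)
        have e0 : act (Γ ∘ π) γ (ax 0) = -(ax 0) := by
          funext l
          rw [hγe]
          by_cases hl : l = 0 ∨ l = 1
          · simp [hl]
          · push Not at hl; simp [hl, ax]
        refine key (-(ax 0)) (by simp [ax]) (by simp [ax]) ?_
          (e0 ▸ hH'.orbit_act hγ (hH'.orbit_ax 0)) ?_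
        · simpa [dot] using dot_ax_ax (F := F) (0 : Fin 5)
        · intro e
          refine h2 ?_
          have : dot (v ∘ π) (-(ax 0)) = -dot (v ∘ π) (ax 0) := by simp [dot]
          rw [this] at e
          linear_combination hne + e
      · exact key (ax 0) (by simp [ax]) (by simp [ax]) (dot_ax_ax 0) (hH'.orbit_ax 0) hne
    · obtain ⟨i, j, k, l, hi, hj, hk, hl, hij, hik, hil, hjk, hjl, hkl⟩ :=
        four_subset (supp v) (by omega)
      obtain ⟨x, y, z, hxy, hyz, hxz, hx, hy, hz, hr⟩ : ∃ x y z : Fin 5, x ≠ y ∧ y ≠ z ∧ x ≠ z ∧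
          x ∈ supp v ∧ y ∈ supp v ∧ z ∈ supp v ∧ v x * v x + v y * v y + v z * v z ≠ 0 := by
        by_contra hcon
        push Not at hcon
        have e1 := hcon i j k hij hjk hik hi hj hk
        have e2 := hcon i j l hij hjl hil hi hj hl
        have e3 := hcon i k l hik hkl hil hi hk hl
        have e4 := hcon j k l hjk hkl hjl hj hk hl
        have : (3 : F) * (v i * v i) = 0 := by linear_combination e1 + e2 + e3 - 2 * e4
        exact mem_supp.1 hi (mul_self_eq_zero.1 ((mul_eq_zero.1 this).resolve_left h3))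
      obtain ⟨π, hπ0, hπ1, hπ2⟩ := exists_reindex x y z hxy hyz hxz
      suffices h : InOrbit (Γ ∘ π) M (v ∘ π) by
        have h' := inOrbit_comp π⁻¹ h
        have e1 : (Γ ∘ π) ∘ (π⁻¹ : Equiv.Perm (Fin 5)) = Γ := by funext l; simp
        have e2 : (v ∘ π) ∘ (π⁻¹ : Equiv.Perm (Fin 5)) = v := by funext l; simp
        rwa [e1, e2] at h'
      have hH' := hH.reindex π
      have hF' := hH.full_reindex hF π
      obtain ⟨u, hu⟩ : ∃ u, u = v ∘ π := ⟨_, rfl⟩
      rw [← hu]
      have hu1 : dot u u = 1 := by rw [hu, dot_comp]; exact hv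
      have hun : (supp u).card ≤ n := by rw [hu, supp_comp_card]; exact hvn
      have hu012 : u 0 ≠ 0 ∧ u 1 ≠ 0 ∧ u 2 ≠ 0 := by
        simp only [hu, Function.comp_apply, hπ0, hπ1, hπ2]
        exact ⟨mem_supp.1 hx, mem_supp.1 hy, mem_supp.1 hz⟩
      obtain ⟨r, hr'⟩ : ∃ r, r = u 0 * u 0 + u 1 * u 1 + u 2 * u 2 := ⟨_, rfl⟩
      have hr0 : r ≠ 0 := by
        simp only [hr', hu, Function.comp_apply, hπ0, hπ1, hπ2]; exact hr
      obtain ⟨s, t, hst⟩ : ∃ s t : F, s * s + t * t = r := by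
        obtain ⟨s, t, hst⟩ := FiniteField.exists_root_sum_quadratic (R := F)
          (f := Polynomial.X ^ 2) (g := Polynomial.X ^ 2 - Polynomial.C r)
          (Polynomial.degree_X_pow 2) (by rw [Polynomial.degree_X_pow_sub_C (by norm_num)]; rfl)
          (FiniteField.odd_card_of_char_ne_two (fun e => h2 (by
            have h := ringChar.Nat.cast_ringChar (R := F)
            rwa [e] at h)))
        exact ⟨s, t, by simp at hst; linear_combination hst⟩
      have key : ∀ s t : F, s * s + t * t = r → r + (u 0 * s + u 1 * t) ≠ 0 →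
          InOrbit (Γ ∘ π) M u := by
        intro s t hst hne
        obtain ⟨a, ha⟩ : ∃ a : Fin 5 → F, a = ![u 0, u 1, u 2, 0, 0] := ⟨_, rfl⟩
        obtain ⟨b, hb⟩ : ∃ b : Fin 5 → F, b = ![s, t, 0, 0, 0] := ⟨_, rfl⟩
        obtain ⟨g, hg, hga, hg3, hg4⟩ := hH'.rotate hF' (a := a) (b := b) (r := r) (by simp [ha])
          (by simp [ha]) (by simp [hb]) (by simp [hb])
          (by simp [dot, Fin.sum_univ_five, ha, hr'])
          (by simp [dot, Fin.sum_univ_five, hb, hst])
          (by simpa [dot, Fin.sum_univ_five, ha, hb] using hne) hr0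
        have hue : u = a + (u 3 • ax 3 + u 4 • ax 4) := by
          funext l; fin_cases l <;> simp [ha, ax]
        have hgu : act (Γ ∘ π) g u = b + (u 3 • ax 3 + u 4 • ax 4) := by
          conv_lhs => rw [hue]
          rw [Frame.act_add, Frame.act_add, Frame.act_smul, Frame.act_smul, hga, hg3, hg4]
        refine hH'.orbit_of_act hg ?_
        have hnorm : dot (act (Γ ∘ π) g u) (act (Γ ∘ π) g u) = 1 := by
          rw [hH'.frame.dot_act (hH'.le hg)]; exact hu1
        rw [hgu] at hnorm ⊢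
        have hlt : (supp (b + (u 3 • ax 3 + u 4 • ax 4))).card < (supp u).card := by
          refine Finset.card_lt_card ((Finset.ssubset_iff_of_subset ?_).2
            ⟨2, mem_supp.2 hu012.2.2, fun h => mem_supp.1 h (by simp [hb, ax])⟩)
          intro l hl
          rw [mem_supp] at hl ⊢
          fin_cases l
          · exact hu012.1
          · exact hu012.2.1
          · exact hu012.2.2
          · simpa [hb, ax] using hl
          · simpa [hb, ax] using hl
        exact IH _ (lt_of_lt_of_le hlt hun) (Γ ∘ π) M hH' hF' _ le_rfl hnorm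
      by_cases hne : r + (u 0 * s + u 1 * t) = 0
      · refine key (-s) (-t) (by linear_combination hst) fun e => hr0 ?_
        exact (mul_eq_zero.1 (show (2 : F) * r = 0 by linear_combination hne + e)).resolve_left h2
      · exact key s t hst hne

omit [Fintype F] in
/-- Over three elements a vector outside the axes gives all vectors of norm one. -/
theorem orbit_of_three (h3 : (3 : F) = 0) (hF3 : ∀ x : F, x = 0 ∨ x = 1 ∨ x = -1)
    {Γ : Fin 5 → M4 F} {M : Subgroup (GL (Fin 2 ⊕ Fin 2) F)} (hH : Hyp Γ M) {v : Fin 5 → F}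
    (hv : InOrbit Γ M v) (hax : ¬ IsAxis v) : ∀ w, dot w w = 1 → InOrbit Γ M w := by
  classical
  have hsq : ∀ x : F, x * x = if x = 0 then 0 else 1 := fun x => by
    rcases hF3 x with rfl | rfl | rfl <;> simp
  have hcount : ∀ w : Fin 5 → F, dot w w = ((supp w).card : F) := fun w => by
    simp only [dot, hsq]
    rw [Finset.sum_ite, Finset.sum_const_zero, zero_add, Finset.sum_const, nsmul_eq_mul, mul_one]
    rfl
  have h2 : (2 : F) ≠ 0 := fun h => one_ne_zero (α := F) (by linear_combination h3 - h)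
  have hcard : ∀ w : Fin 5 → F, dot w w = 1 → (supp w).card = 1 ∨ (supp w).card = 4 := by
    intro w hw
    rw [hcount] at hw
    have hle : (supp w).card ≤ 5 := (Finset.card_le_univ _).trans (by simp)
    interval_cases hc : (supp w).card
    · simp at hw
    · exact Or.inl rfl
    · norm_num at hw
      exact absurd (show (1 : F) = 0 by linear_combination hw) one_ne_zero
    · norm_num at hw
      exact absurd (show (1 : F) = 0 by linear_combination h3 - hw) one_ne_zero
    · exact Or.inr rfl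
    · norm_num at hw
      exact absurd (show (1 : F) = 0 by linear_combination hw - h3) one_ne_zero
  have haxis : ∀ w : Fin 5 → F, (supp w).card = 1 → IsAxis w := fun w hw => by
    obtain ⟨i, hi⟩ := Finset.card_eq_one.1 hw
    refine ⟨i, fun j hj => ?_⟩
    by_contra h
    exact hj (Finset.mem_singleton.1 (hi ▸ mem_supp.2 h))
  have four : ∀ w : Fin 5 → F, (supp w).card = 4 → ∃ i, w i = 0 ∧ ∀ j, j ≠ i → w j ≠ 0 := by
    intro w hw
    have hc : (supp w)ᶜ.card = 1 := by rw [Finset.card_compl, hw]; simp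
    obtain ⟨i, hi⟩ := Finset.card_eq_one.1 hc
    refine ⟨i, by_contra fun h => ?_, fun j hj h => hj ?_⟩
    · have : i ∈ (supp w)ᶜ := hi ▸ Finset.mem_singleton_self i
      exact Finset.mem_compl.1 this (mem_supp.2 h)
    · exact Finset.mem_singleton.1 (hi ▸ Finset.mem_compl.2 fun h' => mem_supp.1 h' h)
  intro w hw
  rcases hcard w hw with hw1 | hw4
  · obtain ⟨i, hi⟩ := haxis w hw1
    have hwi : w = w i • ax i := by
      funext j
      by_cases hj : j = i
      · subst hj; simp [ax]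
      · simp [hi j hj, ax, hj]
    rcases hF3 (w i) with h | h | h
    · rw [hwi, h, zero_smul] at hw; simp [dot] at hw
    · rw [hwi, h, one_smul]; exact hH.orbit_ax i
    · obtain ⟨j, hj⟩ := exists_ne i
      obtain ⟨γ, hγ, hγe⟩ := hH.flip (Ne.symm hj)
      have e0 : act Γ γ (ax i) = w := by
        rw [hwi, h]
        funext l
        rw [hγe]
        by_cases hl : l = i
        · subst hl; simp [ax]
        · by_cases hlj : l = j <;> simp [hl, hlj, hj, ax]
      exact e0 ▸ hH.orbit_act hγ (hH.orbit_ax i)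
  obtain ⟨i, hi0, hi⟩ := four v ((hcard v (hH.orbit_norm hv)).resolve_left fun h => hax (haxis v h))
  obtain ⟨k, hk0, hk⟩ := four w hw4
  obtain ⟨π, hπ, hπi⟩ := exists_even i k
  obtain ⟨g, hg, hge⟩ := hH.perm_act hπ
  obtain ⟨u, hu, hu0, hus⟩ : ∃ u, InOrbit Γ M u ∧ u k = 0 ∧ ∀ j, j ≠ k → u j ≠ 0 := by
    refine ⟨act Γ g v, hH.orbit_act hg hv, by rw [← hπi, hge, hi0], fun j hj => ?_⟩
    rw [← π.apply_symm_apply j, hge]
    exact hi _ fun e => hj (by rw [← hπi, ← e, Equiv.apply_symm_apply])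
  suffices h : ∀ n, ∀ u : Fin 5 → F, InOrbit Γ M u → u k = 0 → (∀ j, j ≠ k → u j ≠ 0) →
      (Finset.univ.filter fun j => u j ≠ w j).card = n → InOrbit Γ M w from h _ u hu hu0 hus rfl
  intro n
  induction n using Nat.strong_induction_on with
  | _ n IH =>
    intro u hu hu0 hus hn
    by_cases huw : u = w
    · exact huw ▸ hu
    obtain ⟨j, hj⟩ := Function.ne_iff.1 huw
    have hjk : j ≠ k := fun e => hj (by rw [e, hu0, hk0])
    obtain ⟨γ, hγ, hγe⟩ := hH.flip hjk
    refine IH _ ?_ (act Γ γ u) (hH.orbit_act hγ hu) (by rw [hγe]; simp [hu0]) (fun l hl => ?_) rfl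
    · rw [← hn]
      refine Finset.card_lt_card ((Finset.ssubset_iff_of_subset fun l hl => ?_).2
        ⟨j, by simpa using hj, ?_⟩)
      · simp only [Finset.mem_filter, Finset.mem_univ, true_and, hγe] at hl ⊢
        by_cases h : l = j ∨ l = k
        · rcases h with rfl | rfl
          · exact hj
          · simp [hu0, hk0] at hl
        · rwa [if_neg h] at hl
      · simp only [Finset.mem_filter, Finset.mem_univ, true_and, hγe, true_or, if_true, not_not]
        rcases hF3 (u j) with h | h | h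
        · exact absurd h (hus j hjk)
        · rcases hF3 (w j) with h' | h' | h'
          · exact absurd h' (hk j hjk)
          · exact absurd (h.trans h'.symm) hj
          · rw [h, h']
        · rcases hF3 (w j) with h' | h' | h'
          · exact absurd h' (hk j hjk)
          · rw [h, h', neg_neg]
          · exact absurd (h.trans h'.symm) hj
    · rw [hγe]
      split_ifs
      · exact neg_ne_zero.2 (hus l hl)
      · exact hus l hl

end Cfsg.Agent.GeoLow.C6
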