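import Cfsg.Agent.GeoLow.SympFourC6.Clifford
import Cfsg.Agent.MaxSub.Dickson.Maximal
import Cfsg.Agent.MaxSub.Dickson.Normal

/-!
An overgroup meets the norm-one quaternions of three anticommuting involutions in a group that is
either everything or monomial (Dickson's list over a prime field).
-/

set_option autoImplicit false

namespace Cfsg.Agent.GeoLow.C6

open Matrix Cfsg.Agent.Elusive25 Cfsg.Agent.MaxSub.Dickson
open scoped MatrixGroups

variable {F : Type*} [Field F]

section Platonic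

set_option synthInstance.maxSize 1000 in
set_option synthInstance.maxHeartbeats 100000 in
lemma perm_key : ∀ a b c : Equiv.Perm (Fin 4), a * a = 1 → b * b = 1 → a * b = b * a → a ≠ 1 →
    b ≠ 1 → a ≠ b → c * a = b * c → c * b = a * b * c → ∀ d : Equiv.Perm (Fin 4),
    (∀ x, d x ≠ x) → d * d = 1 → d = a ∨ d = b ∨ d = a * b := by
  decide +kernel

lemma perm_commutator : ∀ g h : Equiv.Perm (Fin 4),
    g * h * g⁻¹ * h⁻¹ * (g * h * g⁻¹ * h⁻¹) = 1 → g * h * g⁻¹ * h⁻¹ = 1 ∨
      ∀ x, (g * h * g⁻¹ * h⁻¹) x ≠ x := by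
  decide +kernel

lemma five_centraliser : ∀ a : alternatingGroup (Fin 5), a * a = 1 → a ≠ 1 →
    ∀ g : alternatingGroup (Fin 5), g * a = a * g → g * g = 1 := by
  decide +kernel

/-- An inner automorphism of `A_5` fixing a member of a four-group fixes the others. -/
lemma five_no_swap (a b g : alternatingGroup (Fin 5)) (ha : a * a = 1) (hb : b * b = 1)
    (hab : a * b = b * a) (ha1 : a ≠ 1) (hga : g * a = a * g) (hgb : g * b = a * b * g) :
    False := by
  have hg := five_centraliser a ha ha1 g hga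
  have hgb2 := five_centraliser a ha ha1 (g * b) (by rw [mul_assoc, ← hab, ← mul_assoc, hga, mul_assoc])
  refine ha1 ?_
  calc a = a * b * g * (g * b) := by rw [mul_assoc, ← mul_assoc g g, hg, one_mul, mul_assoc, hb, mul_one]
    _ = 1 := by rw [← hgb]; exact hgb2

variable [Fintype F] [DecidableEq F] {p : ℕ} [Fact p.Prime] [CharP F p]

/-- A subgroup of `PGL(2, p)` with a four-group permuted by an element of order three. -/
lemma platonic_or_full (hF : Fintype.card F = p) (H : Subgroup PGL(2, F))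
    {a b c : PGL(2, F)} (ha : a ∈ H) (hb : b ∈ H) (hc : c ∈ H)
    (hab : a * b = b * a) (hne : a ≠ b) (hc3 : c * c * c = 1) (hca : c * a = b * c)
    (hfix : ∀ x : OnePoint F, ¬ (a • x = x ∧ b • x = x)) :
    ((Nat.card H = 12 ∨ Nat.card H = 24) ∧ ∃ f : H →* Equiv.Perm (Fin 4), Function.Injective f) ∨
      (Nat.card H = 60 ∧ Nonempty (H ≃* alternatingGroup (Fin 5))) ∨ lsub F ≤ H := by
  classical
  have hfull : ∀ F₀ : Subfield F, F₀ = ⊤ := fun F₀ => eq_top_iff.2 fun x _ => by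
    obtain ⟨n, rfl⟩ : ∃ n : ℕ, (n : F) = x := by
      have hinj : Function.Injective fun n : Fin p => ((n : ℕ) : F) := fun m n h => Fin.ext (by
        have h' := (CharP.natCast_eq_natCast F p).1 h
        rwa [Nat.ModEq, Nat.mod_eq_of_lt m.2, Nat.mod_eq_of_lt n.2] at h')
      obtain ⟨n, hn⟩ := ((Fintype.bijective_iff_injective_and_card _).2
        ⟨hinj, by rw [Fintype.card_fin, hF]⟩).2 x
      exact ⟨n, hn⟩
    exact natCast_mem F₀ n
  let K := AlgebraicClosure F
  rcases classifyF (K := K) (p := p) H with ⟨_, _, _, hp, hcyc, -, -, -⟩ |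
    ⟨_, _, _, n, -, -, -, -, -, -, ⟨e⟩⟩ | ⟨x, hx, -⟩ | ⟨-, h12, ⟨e⟩⟩ | ⟨-, h24, ⟨e⟩⟩ |
    ⟨-, h60, he⟩ | ⟨F₀, h, -, he⟩ | ⟨F₀, h, -, -, he⟩
  · obtain ⟨g, hg⟩ := hcyc.exists_generator
    refine absurd ?_ hne
    have : (⟨c, hc⟩ : H) * ⟨a, ha⟩ = ⟨a, ha⟩ * ⟨c, hc⟩ := by
      obtain ⟨m, hm⟩ := hg ⟨c, hc⟩
      obtain ⟨k, hk⟩ := hg ⟨a, ha⟩
      simp only at hm hk
      rw [← hm, ← hk, ← _root_.zpow_add, ← _root_.zpow_add, add_comm]
    have h' : c * a = a * c := congrArg Subtype.val this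
    rw [hca] at h'
    exact (mul_right_cancel h').symm
  · refine absurd ?_ hne
    have hi : ∀ {x y : H}, e x = e y → (x : PGL(2, F)) = y := fun h => congrArg Subtype.val (e.injective h)
    obtain ⟨A, hA⟩ : ∃ A, A = e ⟨a, ha⟩ := ⟨_, rfl⟩
    obtain ⟨B, hB⟩ : ∃ B, B = e ⟨b, hb⟩ := ⟨_, rfl⟩
    obtain ⟨C, hC⟩ : ∃ C, C = e ⟨c, hc⟩ := ⟨_, rfl⟩
    have r1 : A * B = B * A := by rw [hA, hB, ← map_mul, ← map_mul]; exact congrArg e (Subtype.ext hab)
    have r2 : C * A = B * C := by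
      rw [hA, hB, hC, ← map_mul, ← map_mul]; exact congrArg e (Subtype.ext hca)
    have r3 : C * C * C = 1 := by
      rw [hC, ← map_mul, ← map_mul, ← map_one e]; exact congrArg e (Subtype.ext hc3)
    suffices A = B from hi (hA ▸ hB ▸ this)
    rcases C with k | k
    · rcases A with i | i <;> rcases B with j | j
      all_goals simp only [DihedralGroup.r_mul_r, DihedralGroup.r_mul_sr, DihedralGroup.sr_mul_r,
        DihedralGroup.sr_mul_sr, DihedralGroup.one_def, DihedralGroup.r.injEq,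
        DihedralGroup.sr.injEq, reduceCtorEq] at r1 r2 r3 ⊢
      · linear_combination r2
      · linear_combination (-2 : ZMod n) * r1 - 3 * r2 - 2 * r3
    · simp only [DihedralGroup.sr_mul_sr, DihedralGroup.r_mul_sr, DihedralGroup.one_def,
        reduceCtorEq] at r3
  · exact absurd ⟨hx a ha, hx b hb⟩ (hfix x)
  · exact Or.inl ⟨Or.inl h12, (alternatingGroup (Fin 4)).subtype.comp e.toMonoidHom,
      Subtype.val_injective.comp e.injective⟩
  · exact Or.inl ⟨Or.inr h24, e.toMonoidHom, e.injective⟩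
  · exact Or.inr (Or.inl ⟨h60, he⟩)
  · refine Or.inr (Or.inr fun g hg => ?_)
    have : h⁻¹ * g * h⁻¹⁻¹ ∈ H.map (MulAut.conj h⁻¹).toMonoidHom := by
      rw [he, hfull F₀]
      obtain ⟨y, hy⟩ := (map_pgl_surjective (Subfield.topEquiv (K := F))) (h⁻¹ * g * h⁻¹⁻¹)
      exact ⟨y, hy⟩
    obtain ⟨z, hz, hze⟩ := this
    rwa [show g = z from mul_left_cancel (mul_right_cancel hze.symm)]
  · refine Or.inr (Or.inr fun g hg => ?_)
    have : h⁻¹ * g * h⁻¹⁻¹ ∈ H.map (MulAut.conj h⁻¹).toMonoidHom := by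
      rw [he, hfull F₀, range_subPSL]
      have h1 := lsub_normal.conj_mem g hg h⁻¹
      rw [← map_lsub_eq (Subfield.topEquiv (K := F))] at h1
      exact h1
    obtain ⟨z, hz, hze⟩ := this
    rwa [show g = z from mul_left_cancel (mul_right_cancel hze.symm)]

/-- Two distinct commuting involutions fixing no common point. -/
lemma no_four_in_aff {K : Type*} [Field K] [DecidableEq K] (h2 : (2 : K) ≠ 0) {u₁ u₂ : Kˣ}
    {v₁ v₂ : K} (ha : aff u₁ v₁ * aff u₁ v₁ = 1) (hb : aff u₂ v₂ * aff u₂ v₂ = 1)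
    (hab : aff u₁ v₁ * aff u₂ v₂ = aff u₂ v₂ * aff u₁ v₁) (ha1 : aff u₁ v₁ ≠ 1)
    (hb1 : aff u₂ v₂ ≠ 1) : aff u₁ v₁ = aff u₂ v₂ := by
  have key : ∀ (u : Kˣ) (v : K), aff u v * aff u v = 1 → aff u v ≠ 1 → u = -1 := by
    intro u v h h1
    rw [aff_mul, aff_eq_one_iff] at h
    have hu : ((u : K) - 1) * ((u : K) + 1) = 0 := by
      have := congrArg Units.val h.1
      simp only [Units.val_mul, Units.val_one] at this
      linear_combination this
    rcases mul_eq_zero.1 hu with hu | hu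
    · refine absurd (aff_eq_one_iff.2 ⟨Units.ext (sub_eq_zero.1 hu), ?_⟩) h1
      exact (mul_eq_zero.1 (show (2 : K) * v = 0 by linear_combination h.2 - v * hu)).resolve_left h2
    · exact Units.ext (by simpa using eq_neg_of_add_eq_zero_left hu)
  obtain rfl := key _ _ ha ha1
  obtain rfl := key _ _ hb hb1
  rw [aff_mul, aff_mul] at hab
  have e := (aff_inj hab).2
  simp only [Units.val_neg, Units.val_one] at e
  rw [(mul_left_cancel₀ h2 (by linear_combination e) : v₁ = v₂)]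

end Platonic

section Iota

variable {a b c : M4 F} (h : Three a b c)

lemma trace_mul_anti (h2 : (2 : F) ≠ 0) {x y : M4 F} (hxy : y * x = -(x * y)) :
    (x * y).trace = 0 := by
  have h := Matrix.trace_mul_comm y x
  rw [hxy, Matrix.trace_neg] at h
  exact (mul_eq_zero.1 (show (2 : F) * (x * y).trace = 0 by linear_combination -h)).resolve_left h2

include h

lemma qu_eq_zero (h2 : (2 : F) ≠ 0) {s u v w : F} (he : qu a b c s u v w = (0 : M4 F)) :
    s = 0 ∧ u = 0 ∧ v = 0 ∧ w = 0 := by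
  have h4 : (4 : F) ≠ 0 := by
    rw [show (4 : F) = 2 * 2 by norm_num]; exact mul_ne_zero h2 h2
  have key : ∀ s u v w : F, qu a b c s u v w = (0 : M4 F) → s = 0 := by
    intro s u v w he
    have h' := congrArg Matrix.trace he
    simp only [qu, Matrix.trace_add, Matrix.trace_smul, trace_mul_anti h2 h.ba,
      trace_mul_anti h2 h.cb, trace_mul_anti h2 (show a * c = -(c * a) by rw [h.ca, neg_neg]),
      Matrix.trace_one, Matrix.trace_zero, smul_eq_mul, mul_zero, add_zero, Fintype.card_sum,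
      Fintype.card_fin] at h'
    norm_num at h'
    exact h'.resolve_right h4
  have hmul : ∀ u' v' w' : F, qu a b c s u v w * qu a b c 0 u' v' w' = (0 : M4 F) := fun _ _ _ => by
    rw [he, zero_mul]
  have h1 := hmul 1 0 0
  have h2' := hmul 0 1 0
  have h3 := hmul 0 0 1
  rw [qu_mul h] at h1 h2' h3
  have e1 := key _ _ _ _ h1
  have e2 := key _ _ _ _ h2'
  have e3 := key _ _ _ _ h3
  exact ⟨key _ _ _ _ he, by linear_combination -e1, by linear_combination -e2,
    by linear_combination -e3⟩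

variable {P Q : F} (hPQ : P * P + Q * Q + 1 = 0)
include hPQ

/-- The isomorphism of the two by two matrices with the quaternion algebra. -/
def iota (h2 : (2 : F) ≠ 0) : Matrix (Fin 2) (Fin 2) F →* M4 F where
  toFun S := qu a b c ((S 0 0 + S 1 1) / 2) ((S 0 1 - S 1 0) / 2)
    (-(P * ((S 0 0 - S 1 1) / 2) + Q * ((S 0 1 + S 1 0) / 2)))
    (Q * ((S 0 0 - S 1 1) / 2) - P * ((S 0 1 + S 1 0) / 2))
  map_one' := by simp [qu, one_add_one_eq_two, h2]
  map_mul' S T := by
    rw [qu_mul h]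
    simp only [Matrix.mul_apply, Fin.sum_univ_two]
    congr 1
    · field_simp
      linear_combination ((S 0 0 - S 1 1) * (T 0 0 - T 1 1) + (S 0 1 + S 1 0) * (T 0 1 + T 1 0)) * hPQ
    · field_simp
      linear_combination ((S 0 0 - S 1 1) * (T 0 1 + T 1 0) - (S 0 1 + S 1 0) * (T 0 0 - T 1 1)) * hPQ
    · field_simp; ring
    · field_simp; ring

omit h hPQ in
/-- The matrix with given quaternion coordinates. -/
def pre (P Q s u v w : F) : Matrix (Fin 2) (Fin 2) F :=
  !![s + (P * v - Q * w), Q * v + P * w + u; Q * v + P * w - u, s - (P * v - Q * w)]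

omit h in
lemma det_pre (s u v w : F) : (pre P Q s u v w).det = s * s + u * u + v * v + w * w := by
  simp [pre, Matrix.det_fin_two]
  linear_combination -(v * v + w * w) * hPQ

variable (h2 : (2 : F) ≠ 0)

lemma iota_pre (s u v w : F) : iota h hPQ h2 (pre P Q s u v w) = qu a b c s u v w := by
  show qu a b c _ _ _ _ = _
  simp only [pre, Matrix.of_apply, Matrix.cons_val', Matrix.cons_val_zero, Matrix.cons_val_one,
    Matrix.empty_val', Matrix.cons_val_fin_one]
  congr 1
  · field_simp; ring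
  · field_simp; ring
  · field_simp; linear_combination -2 * v * hPQ
  · field_simp; linear_combination -2 * w * hPQ

lemma iota_injective : Function.Injective (iota h hPQ h2) := by
  intro S T e
  have e' : qu a b c ((S 0 0 + S 1 1) / 2 - (T 0 0 + T 1 1) / 2)
      ((S 0 1 - S 1 0) / 2 - (T 0 1 - T 1 0) / 2)
      (-(P * ((S 0 0 - S 1 1) / 2) + Q * ((S 0 1 + S 1 0) / 2)) -
        -(P * ((T 0 0 - T 1 1) / 2) + Q * ((T 0 1 + T 1 0) / 2)))
      ((Q * ((S 0 0 - S 1 1) / 2) - P * ((S 0 1 + S 1 0) / 2)) -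
        (Q * ((T 0 0 - T 1 1) / 2) - P * ((T 0 1 + T 1 0) / 2))) = (0 : M4 F) := by
    have e₀ : iota h hPQ h2 S - iota h hPQ h2 T = 0 := sub_eq_zero.2 e
    rw [← e₀]
    show _ = qu a b c _ _ _ _ - qu a b c _ _ _ _
    simp only [qu]
    module
  obtain ⟨e1, e2, e3, e4⟩ := qu_eq_zero h h2 e'
  field_simp at e1 e2 e3 e4
  have hu : (S 0 0 - S 1 1) - (T 0 0 - T 1 1) = 0 := by
    linear_combination P * e3 - Q * e4 + ((S 0 0 - S 1 1) - (T 0 0 - T 1 1)) * hPQ
  have hw : (S 0 1 + S 1 0) - (T 0 1 + T 1 0) = 0 := by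
    linear_combination Q * e3 + P * e4 + ((S 0 1 + S 1 0) - (T 0 1 + T 1 0)) * hPQ
  ext i j
  fin_cases i <;> fin_cases j <;> apply mul_left_cancel₀ h2 <;> simp only [Fin.zero_eta, Fin.mk_one, Fin.isValue]
  · linear_combination e1 + hu
  · linear_combination e2 + hw
  · linear_combination hw - e2
  · linear_combination e1 - hu

end Iota

/-- Membership in the norm-one quaternions of three involutions. -/
def InQ (a b c : M4 F) (g : GL (Fin 2 ⊕ Fin 2) F) : Prop :=
  ∃ s u v w : F, s * s + u * u + v * v + w * w = 1 ∧ (g : M4 F) = qu a b c s u v w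

variable [Fintype F]

/-- Either all norm-one quaternions lie in the group, or commutators of order four among them are
monomial. -/
theorem triple_dichotomy {p : ℕ} [Fact p.Prime] (hF : Fintype.card F = p) (h2 : (2 : F) ≠ 0)
    {a b c : M4 F} (h : Three a b c) (M : Subgroup (GL (Fin 2 ⊕ Fin 2) F))
    (hx : ∃ g ∈ M, (g : M4 F) = a * b) (hy : ∃ g ∈ M, (g : M4 F) = b * c)
    (hu : ∃ g ∈ M, (g : M4 F) = qu a b c (2⁻¹ : F) 2⁻¹ 2⁻¹ 2⁻¹)
    (hσ : ∃ g ∈ M, (g : M4 F) * a = b * (g : M4 F) ∧ (g : M4 F) * b = a * (g : M4 F) ∧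
      (g : M4 F) * c = c * (g : M4 F)) :
    (∀ s u v w : F, s * s + u * u + v * v + w * w = 1 →
      ∃ g ∈ M, (g : M4 F) = qu a b c s u v w) ∨
    (∀ g h' : GL (Fin 2 ⊕ Fin 2) F, g ∈ M → h' ∈ M → InQ a b c g → InQ a b c h' →
      ((g * h' * g⁻¹ * h'⁻¹ : GL (Fin 2 ⊕ Fin 2) F) : M4 F) *
        ((g * h' * g⁻¹ * h'⁻¹ : GL (Fin 2 ⊕ Fin 2) F) : M4 F) = -1 →
      ((g * h' * g⁻¹ * h'⁻¹ : GL (Fin 2 ⊕ Fin 2) F) : M4 F) ∈
        ({a * b, -(a * b), b * c, -(b * c), c * a, -(c * a)} : Set (M4 F))) := by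
  classical
  have hchar : CharP F p := by
    obtain ⟨n, hn, he⟩ := FiniteField.card F (ringChar F)
    rw [hF] at he
    have : ringChar F = p := (Nat.prime_dvd_prime_iff_eq hn Fact.out).mp (he ▸ dvd_pow_self _ n.ne_zero)
    exact this ▸ ringChar.charP F
  obtain ⟨P, Q, hPQ⟩ : ∃ P Q : F, P * P + Q * Q + 1 = 0 := by
    obtain ⟨x, y, hxy⟩ := FiniteField.exists_root_sum_quadratic (R := F) (f := Polynomial.X ^ 2)
      (g := Polynomial.X ^ 2 - Polynomial.C (-1)) (Polynomial.degree_X_pow 2)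
      (by rw [Polynomial.degree_X_pow_sub_C (by norm_num)]; rfl)
      (FiniteField.odd_card_of_char_ne_two (fun e => h2 (by
        have h := ringChar.Nat.cast_ringChar (R := F)
        rwa [e] at h)))
    exact ⟨x, y, by simp at hxy; linear_combination hxy⟩
  set ι := iota h hPQ h2 with hι
  have hιinj : Function.Injective ι := iota_injective h hPQ h2
  let Λ : SL(2, F) →* GL (Fin 2 ⊕ Fin 2) F := (Units.map ι).comp SpecialLinearGroup.toGL
  have hΛ : ∀ S : SL(2, F), (Λ S : M4 F) = ι (S : Matrix (Fin 2) (Fin 2) F) := fun S => rfl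
  set L := M.comap Λ with hL
  set H := L.map (pr (F := F)) with hH
  have mk : ∀ s u v w : F, s * s + u * u + v * v + w * w = 1 → ∃ S : SL(2, F),
      (Λ S : M4 F) = qu a b c s u v w := fun s u v w hn =>
    ⟨⟨pre P Q s u v w, by rw [det_pre hPQ]; exact hn⟩, iota_pre h hPQ h2 s u v w⟩
  have mem : ∀ {S : SL(2, F)} {X : M4 F}, (Λ S : M4 F) = X → (∃ g ∈ M, (g : M4 F) = X) → S ∈ L := by
    rintro S X hS ⟨g, hg, rfl⟩
    show Λ S ∈ M
    rwa [Units.ext hS]
  have negL : ∀ S : SL(2, F), (Λ (-S) : M4 F) = -(Λ S : M4 F) := fun S => by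
    rw [hΛ, hΛ]
    show qu a b c _ _ _ _ = -qu a b c _ _ _ _
    simp only [SpecialLinearGroup.coe_neg, Matrix.neg_apply, qu, neg_add, ← neg_smul]
    congr 4 <;> ring
  have sleq : ∀ {S T : SL(2, F)}, (Λ S : M4 F) = Λ T ∨ (Λ S : M4 F) = -(Λ T : M4 F) →
      pr S = pr T := by
    rintro S T (e | e)
    · rw [Subtype.ext (hιinj ((hΛ S).symm.trans (e.trans (hΛ T))))]
    · rw [← negL] at e
      rw [Subtype.ext (hιinj ((hΛ S).symm.trans (e.trans (hΛ (-T))))), pr_neg]
  have prmul : ∀ {S T U : SL(2, F)},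
      (Λ S : M4 F) * Λ T = Λ U ∨ (Λ S : M4 F) * Λ T = -(Λ U : M4 F) → pr S * pr T = pr U :=
    fun hST => by rw [← map_mul]; exact sleq (by rwa [map_mul, Units.val_mul])
  -- the basic elements
  obtain ⟨X, hX⟩ : ∃ X : SL(2, F), (Λ X : M4 F) = a * b := by
    obtain ⟨S, hS⟩ := mk 0 1 0 0 (by ring)
    exact ⟨S, by rw [hS]; simp [qu]⟩
  obtain ⟨Y, hY⟩ : ∃ Y : SL(2, F), (Λ Y : M4 F) = b * c := by
    obtain ⟨S, hS⟩ := mk 0 0 1 0 (by ring)
    exact ⟨S, by rw [hS]; simp [qu]⟩
  obtain ⟨Z, hZ⟩ : ∃ Z : SL(2, F), (Λ Z : M4 F) = c * a := by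
    obtain ⟨S, hS⟩ := mk 0 0 0 1 (by ring)
    exact ⟨S, by rw [hS]; simp [qu]⟩
  obtain ⟨U, hU⟩ : ∃ U : SL(2, F), (Λ U : M4 F) = qu a b c (2⁻¹ : F) 2⁻¹ 2⁻¹ 2⁻¹ :=
    mk _ _ _ _ (by field_simp; ring)
  have hone : ((Λ 1 : GL (Fin 2 ⊕ Fin 2) F) : M4 F) = 1 := by rw [map_one, Units.val_one]
  have hxz : (a * b) * (c * a) = b * c := by
    rw [mul_assoc a b, ← mul_assoc b c a, ← mul_assoc a]
    rw [show a * (b * c) * a = a * ((b * c) * a) from mul_assoc _ _ _, mul_assoc b c a, h.ca,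
      mul_neg, h.ba', neg_neg, h.aa']
  have hxx : a * b * (a * b) = -1 := by rw [mul_assoc, h.ba', h.bb, mul_neg, mul_one, h.aa]
  have hzz : c * a * (c * a) = -1 := by
    rw [mul_assoc, ← mul_assoc a c, show a * c = -(c * a) by rw [h.ca, neg_neg], neg_mul,
      mul_assoc c a a, h.aa, mul_one, mul_neg, h.cc]
  have hzx : (c * a) * (a * b) = -(b * c) := by rw [mul_assoc, h.aa', h.cb]
  obtain ⟨x, hx'⟩ : ∃ x, x = pr X := ⟨_, rfl⟩
  obtain ⟨z, hz'⟩ : ∃ z, z = pr Z := ⟨_, rfl⟩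
  obtain ⟨u, hu'⟩ : ∃ u, u = pr U := ⟨_, rfl⟩
  have e1 : pr (1 : SL(2, F)) = 1 := map_one _
  have rxx : x * x = 1 := by rw [hx', ← e1]; exact prmul (Or.inr (by rw [hX, hone, hxx]))
  have rzz : z * z = 1 := by rw [hz', ← e1]; exact prmul (Or.inr (by rw [hZ, hone, hzz]))
  have ry : x * z = pr Y := by rw [hx', hz']; exact prmul (Or.inl (by rw [hX, hZ, hY, hxz]))
  have ry' : z * x = pr Y := by rw [hx', hz']; exact prmul (Or.inr (by rw [hX, hZ, hY, hzx]))
  have rcomm : x * z = z * x := ry.trans ry'.symm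
  have hcyc1 := cycle_conj (F := F) h
  have hcyc2 := cycle_conj (F := F) h.rotate
  rw [qu_rotate h] at hcyc2
  have hcyc3 := cycle_conj (F := F) h.rotate.rotate
  rw [qu_rotate h.rotate, qu_rotate h] at hcyc3
  have conjU : ∀ {S T : SL(2, F)}, (Λ U : M4 F) * Λ S = (Λ T : M4 F) * Λ U →
      pr U * pr S = pr T * pr U := fun hST => by
    rw [← map_mul, ← map_mul]
    exact sleq (Or.inl (by rwa [map_mul, map_mul, Units.val_mul, Units.val_mul]))
  have rux : u * x = z * u := by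
    rw [hu', hx', hz']
    exact conjU (by rw [hU, hX, hZ, ← mul_assoc, hcyc1, mul_assoc c, hcyc2, ← mul_assoc])
  have ruz : u * z = x * z * u := by
    rw [ry, hu', hz']
    exact conjU (by rw [hU, hY, hZ, ← mul_assoc, hcyc3, mul_assoc b, hcyc1, ← mul_assoc])
  have ru3 : u * u * u = 1 := by
    rw [hu', ← map_mul, ← map_mul, ← e1]
    refine sleq (Or.inr ?_)
    rw [map_mul, map_mul, Units.val_mul, Units.val_mul, hU, hone, qu_mul h, qu_mul h, qu,
      ← neg_one_smul F (1 : M4 F)]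
    match_scalars <;> field_simp <;> ring
  have hne1 : ∀ {S : SL(2, F)} {W : M4 F}, (Λ S : M4 F) = W → W * W = -1 → pr S ≠ 1 := by
    intro S W hS hW he
    obtain ⟨e01, e10, e00⟩ := scalar_of_pr_eq_one he
    have hdet := sl_det S
    have hSS : (S : Matrix (Fin 2) (Fin 2) F) * S = 1 := by
      ext i j
      rw [e01, e00, zero_mul, sub_zero] at hdet
      fin_cases i <;> fin_cases j <;> simp [Matrix.mul_apply, e01, e10, e00] <;>
        linear_combination hdet
    have h11 := congrArg ι hSS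
    rw [map_mul, map_one, ← hΛ, hS, hW] at h11
    have h00 := congrFun (congrFun h11 (Sum.inl 0)) (Sum.inl 0)
    simp at h00
    exact h2 (by linear_combination -h00)
  have hx1 : x ≠ 1 := hx' ▸ hne1 hX hxx
  have hz1 : z ≠ 1 := hz' ▸ hne1 hZ hzz
  have hy2 : b * c * (b * c) = -1 := by rw [mul_assoc, h.cb', h.cc, mul_neg, mul_one, h.bb]
  have hxnz : x ≠ z := fun e => hne1 hY hy2 (by rw [← ry, ← e]; exact rxx)
  have hXL : X ∈ L := mem hX hx
  have hYL : Y ∈ L := mem hY hy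
  have hUL : U ∈ L := mem hU hu
  have hxH : x ∈ H := hx' ▸ Subgroup.mem_map_of_mem _ hXL
  have huH : u ∈ H := hu' ▸ Subgroup.mem_map_of_mem _ hUL
  have hzH : z ∈ H := by
    rw [show z = x * pr Y by rw [← ry, ← mul_assoc, rxx, one_mul]]
    exact mul_mem hxH (Subgroup.mem_map_of_mem _ hYL)
  have hfix : ∀ q : OnePoint F, ¬ (x • q = q ∧ z • q = q) := by
    rintro q ⟨hq1, hq2⟩
    obtain ⟨k, hk⟩ := exists_move q
    obtain ⟨u₁, v₁, e₁⟩ := exists_aff (fixed_conj (g := x) (h := k) (by rw [hk, hq1]))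
    obtain ⟨u₂, v₂, e₂⟩ := exists_aff (fixed_conj (g := z) (h := k) (by rw [hk, hq2]))
    have hinj : ∀ {y y' : PGL(2, F)}, k⁻¹ * y * k = k⁻¹ * y' * k → y = y' := fun e =>
      mul_left_cancel (mul_right_cancel e)
    refine hxnz (hinj ?_)
    rw [e₁, e₂]
    refine no_four_in_aff h2 ?_ ?_ ?_ ?_ ?_
    · rw [← e₁, show k⁻¹ * x * k * (k⁻¹ * x * k) = k⁻¹ * (x * x) * k by group, rxx]; group
    · rw [← e₂, show k⁻¹ * z * k * (k⁻¹ * z * k) = k⁻¹ * (z * z) * k by group, rzz]; group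
    · rw [← e₁, ← e₂, show k⁻¹ * x * k * (k⁻¹ * z * k) = k⁻¹ * (x * z) * k by group, rcomm]; group
    · exact fun e => hx1 (hinj (by rw [e₁, e, mul_one, inv_mul_cancel]))
    · exact fun e => hz1 (hinj (by rw [e₂, e, mul_one, inv_mul_cancel]))
  have full : lsub F ≤ H → ∀ s u v w : F, s * s + u * u + v * v + w * w = 1 →
      ∃ g ∈ M, (g : M4 F) = qu a b c s u v w := by
    intro hle s u v w hn
    obtain ⟨S, hS⟩ := mk s u v w hn
    obtain ⟨T, hT, hTe⟩ := hle (pr_mem_lsub S)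
    have hq : pr (T⁻¹ * S) = 1 := by rw [map_mul, map_inv, hTe, inv_mul_cancel]
    obtain ⟨e01, e10, e00⟩ := scalar_of_pr_eq_one hq
    have hd := sl_det (T⁻¹ * S)
    rw [e01, e00, zero_mul, sub_zero] at hd
    have hmem : T⁻¹ * S ∈ L := by
      rcases mul_self_eq_one_iff.1 hd with hd | hd
      · have : T⁻¹ * S = 1 := by
          ext i j
          fin_cases i <;> fin_cases j
          exacts [(e00.trans hd).trans (by simp), e01.trans (by simp), e10.trans (by simp),
            hd.trans (by simp)]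
        rw [this]; exact one_mem L
      · have : T⁻¹ * S = X * X := by
          refine Subtype.ext (hιinj ?_)
          rw [Matrix.SpecialLinearGroup.coe_mul X X, map_mul, ← hΛ X, hX, hxx]
          have : ((T⁻¹ * S : SL(2, F)) : Matrix (Fin 2) (Fin 2) F) = ((-1 : SL(2, F)) : Matrix (Fin 2) (Fin 2) F) := by
            ext i j
            fin_cases i <;> fin_cases j <;> simp only [SpecialLinearGroup.coe_neg]
            exacts [(e00.trans hd).trans (by simp), e01.trans (by simp), e10.trans (by simp),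
              hd.trans (by simp)]
          rw [this, ← hΛ, negL, hone]
        rw [this]; exact mul_mem hXL hXL
    exact ⟨Λ S, show S ∈ L by simpa using mul_mem hT hmem, hS⟩
  rcases platonic_or_full hF H hxH hzH huH rcomm hxnz ru3 rux hfix with
    ⟨-, f, hf⟩ | ⟨h60, ⟨e⟩⟩ | hle
  · right
    intro g h' hg hh hgQ hhQ hsq
    obtain ⟨s, u₀, v, w, hn, hge⟩ := hgQ
    obtain ⟨s', u', v', w', hn', hhe⟩ := hhQ
    obtain ⟨G, hG⟩ := mk s u₀ v w hn
    obtain ⟨H', hH'⟩ := mk s' u' v' w' hn'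
    have hGg : Λ G = g := Units.ext (hG.trans hge.symm)
    have hHh : Λ H' = h' := Units.ext (hH'.trans hhe.symm)
    have hGL : G ∈ L := by show Λ G ∈ M; rwa [hGg]
    have hHL : H' ∈ L := by show Λ H' ∈ M; rwa [hHh]
    obtain ⟨W, hW⟩ : ∃ W, W = G * H' * G⁻¹ * H'⁻¹ := ⟨_, rfl⟩
    have hWΛ : Λ W = g * h' * g⁻¹ * h'⁻¹ := by simp [hW, hGg, hHh]
    rw [← hWΛ] at hsq ⊢
    let A : H := ⟨x, hxH⟩
    let B : H := ⟨z, hzH⟩
    let C : H := ⟨u, huH⟩
    let Gb : H := ⟨pr G, Subgroup.mem_map_of_mem _ hGL⟩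
    let Hb : H := ⟨pr H', Subgroup.mem_map_of_mem _ hHL⟩
    have hD : ((Gb * Hb * Gb⁻¹ * Hb⁻¹ : H) : PGL(2, F)) = pr W := by simp [Gb, Hb, hW]
    have hW2 : pr W * pr W = 1 := by rw [← e1]; exact prmul (Or.inr (by rw [hone, hsq]))
    have key : pr W = x ∨ pr W = z ∨ pr W = x * z := by
      have hD2 : f (Gb * Hb * Gb⁻¹ * Hb⁻¹) * f (Gb * Hb * Gb⁻¹ * Hb⁻¹) = 1 := by
        rw [← map_mul, show Gb * Hb * Gb⁻¹ * Hb⁻¹ * (Gb * Hb * Gb⁻¹ * Hb⁻¹) = 1 from
          Subtype.ext (by rw [Subgroup.coe_mul, hD]; exact hW2), map_one]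
      have hder := perm_commutator (f Gb) (f Hb) (by rw [← map_inv, ← map_inv, ← map_mul, ← map_mul, ← map_mul]; exact hD2)
      rw [← map_inv, ← map_inv, ← map_mul, ← map_mul, ← map_mul] at hder
      have hd := perm_key (f A) (f B) (f C)
        (by rw [← map_mul, show A * A = 1 from Subtype.ext rxx, map_one])
        (by rw [← map_mul, show B * B = 1 from Subtype.ext rzz, map_one])
        (by rw [← map_mul, ← map_mul, show A * B = B * A from Subtype.ext rcomm])
        (fun e => hx1 (congrArg Subtype.val (hf (e.trans (map_one f).symm))))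
        (fun e => hz1 (congrArg Subtype.val (hf (e.trans (map_one f).symm))))
        (fun e => hxnz (congrArg Subtype.val (hf e)))
        (by rw [← map_mul, ← map_mul, show C * A = B * C from Subtype.ext rux])
        (by rw [← map_mul, ← map_mul, ← map_mul, show C * B = A * B * C from Subtype.ext ruz])
        (f (Gb * Hb * Gb⁻¹ * Hb⁻¹)) (hder.resolve_left fun e => by
          have e' := congrArg Subtype.val (hf (e.trans (map_one f).symm))
          rw [hD] at e'
          exact hne1 (W := (Λ W : M4 F)) rfl hsq e') hD2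
      rcases hd with e | e | e
      · exact Or.inl (hD.symm.trans (congrArg Subtype.val (hf e)))
      · exact Or.inr (Or.inl (hD.symm.trans (congrArg Subtype.val (hf e))))
      · rw [← map_mul] at e
        exact Or.inr (Or.inr (hD.symm.trans (congrArg Subtype.val (hf e))))
    have sign : ∀ {T : SL(2, F)}, pr W = pr T → (Λ W : M4 F) = Λ T ∨ (Λ W : M4 F) = -(Λ T : M4 F) := by
      intro T he
      have hq : pr (T⁻¹ * W) = 1 := by rw [map_mul, map_inv, he, inv_mul_cancel]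
      obtain ⟨e01, e10, e00⟩ := scalar_of_pr_eq_one hq
      have hd := sl_det (T⁻¹ * W)
      rw [e01, e00, zero_mul, sub_zero] at hd
      rcases mul_self_eq_one_iff.1 hd with hd | hd
      · left
        have : T⁻¹ * W = 1 := by
          ext i j
          fin_cases i <;> fin_cases j
          exacts [(e00.trans hd).trans (by simp), e01.trans (by simp), e10.trans (by simp),
            hd.trans (by simp)]
        rw [(inv_mul_eq_one.1 this).symm]
      · right
        have : T⁻¹ * W = -1 := by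
          ext i j
          fin_cases i <;> fin_cases j <;> simp only [SpecialLinearGroup.coe_neg]
          exacts [(e00.trans hd).trans (by simp), e01.trans (by simp), e10.trans (by simp),
            hd.trans (by simp)]
        rw [← negL, show W = -T by rw [inv_mul_eq_iff_eq_mul.1 this, mul_neg_one]]
    simp only [Set.mem_insert_iff, Set.mem_singleton_iff]
    rcases key with e | e | e
    · rcases sign (e.trans hx') with e | e <;> rw [e, hX] <;> simp
    · rcases sign (e.trans hz') with e | e <;> rw [e, hZ] <;> simp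
    · rcases sign (e.trans ry) with e | e <;> rw [e, hY] <;> simp
  swap
  · exact Or.inl (full hle)
  -- the alternating group of degree five does not occur
  left
  obtain ⟨g, hg, hga, hgb, hgc⟩ := hσ
  have hvv : ∀ c d : F, c * d = -2⁻¹ → (c • !![P + Q, Q - P; Q - P, -P - Q]) *
      (d • !![P + Q, Q - P; Q - P, -P - Q] : Matrix (Fin 2) (Fin 2) F) = 1 := by
    intro c d hcd
    rw [smul_mul_smul_comm, hcd]
    ext i j
    fin_cases i <;> fin_cases j <;> simp <;> field_simp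
    all_goals first
      | ring1
      | exact Or.inr (by ring)
      | linear_combination -2 * hPQ
  let v : GL (Fin 2) F := ⟨(1 : F) • !![P + Q, Q - P; Q - P, -P - Q],
    (-2⁻¹ : F) • !![P + Q, Q - P; Q - P, -P - Q], hvv _ _ (one_mul _), hvv _ _ (mul_one _)⟩
  let σ : PGL(2, F) := ProjGenLinGroup.mk v
  have hgi : ∀ {A B : M4 F}, (g : M4 F) * A = B * (g : M4 F) →
      (g : M4 F) * A * ((g⁻¹ : GL (Fin 2 ⊕ Fin 2) F) : M4 F) = B := fun e => by
    rw [e, mul_assoc, Units.mul_inv, mul_one]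
  have hgq : ∀ s u v w : F, (g : M4 F) * qu a b c s u v w * ((g⁻¹ : GL (Fin 2 ⊕ Fin 2) F) : M4 F) =
      qu a b c s (-u) (-w) (-v) := by
    intro s u v w
    refine hgi ?_
    simp only [qu, mul_add, add_mul, mul_smul_comm, smul_mul_assoc, mul_one, one_mul, ← mul_assoc, hga, hgb, hgc]
    simp only [mul_assoc, hga, hgb, hgc]
    simp only [← mul_assoc, h.ba, show a * c = -(c * a) by rw [h.ca, neg_neg], h.cb, neg_mul, smul_neg]
    module
  have hv : ∀ S : Matrix (Fin 2) (Fin 2) F,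
      ι ((v : Matrix (Fin 2) (Fin 2) F) * S * ((v⁻¹ : GL (Fin 2) F) : Matrix (Fin 2) (Fin 2) F)) =
        (g : M4 F) * ι S * ((g⁻¹ : GL (Fin 2 ⊕ Fin 2) F) : M4 F) := by
    intro S
    show qu a b c _ _ _ _ = (g : M4 F) * qu a b c _ _ _ _ * _
    rw [hgq]
    simp only [v, Units.inv_mk, Matrix.mul_apply, Fin.sum_univ_two, Matrix.smul_apply, smul_eq_mul,
      one_mul, Matrix.of_apply, Matrix.cons_val', Matrix.cons_val_zero, Matrix.cons_val_one,
      Matrix.empty_val', Matrix.cons_val_fin_one]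
    congr 1
    · field_simp
      linear_combination -2 * (S 0 0 + S 1 1) * hPQ
    · field_simp
      linear_combination 2 * (S 0 1 - S 1 0) * hPQ
    · field_simp
      linear_combination 2 * (Q * (S 0 0 - S 1 1) - P * (S 0 1 + S 1 0)) * hPQ
    · field_simp
      linear_combination -2 * (P * (S 0 0 - S 1 1) + Q * (S 0 1 + S 1 0)) * hPQ
  have hσH : ∀ k ∈ H, σ * k * σ⁻¹ ∈ H := by
    rintro _ ⟨S, hS, rfl⟩
    have hd : ((v : Matrix (Fin 2) (Fin 2) F) * S * ((v⁻¹ : GL (Fin 2) F) : Matrix (Fin 2) (Fin 2) F)).det = 1 := by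
      rw [Matrix.det_units_conj, S.2]
    refine ⟨⟨_, hd⟩, ?_, ?_⟩
    · show Λ ⟨_, hd⟩ ∈ M
      rw [show Λ ⟨_, hd⟩ = g * Λ S * g⁻¹ from Units.ext (hv S)]
      exact mul_mem (mul_mem hg hS) (inv_mem hg)
    · show _ = ProjGenLinGroup.mk v * ProjGenLinGroup.mk (SpecialLinearGroup.toGL S) * (ProjGenLinGroup.mk v)⁻¹
      rw [← map_inv, ← map_mul, ← map_mul]
      exact congrArg ProjGenLinGroup.mk (Units.ext rfl)
  have hσconj : ∀ {S T : SL(2, F)}, (g : M4 F) * Λ S = -(Λ T : M4 F) * (g : M4 F) →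
      σ * pr S = pr T * σ := by
    intro S T hST
    have hd : ((v : Matrix (Fin 2) (Fin 2) F) * S * ((v⁻¹ : GL (Fin 2) F) : Matrix (Fin 2) (Fin 2) F)).det = 1 := by
      rw [Matrix.det_units_conj, S.2]
    have e : pr ⟨_, hd⟩ = pr T := sleq (Or.inr (by
      rw [hΛ ⟨_, hd⟩]
      show ι _ = _
      rw [hv, ← hΛ, hgi hST]))
    rw [← e]
    show ProjGenLinGroup.mk v * ProjGenLinGroup.mk (SpecialLinearGroup.toGL S) = _ * ProjGenLinGroup.mk v
    rw [← map_mul]
    show _ = ProjGenLinGroup.mk (SpecialLinearGroup.toGL _) * ProjGenLinGroup.mk v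
    rw [← map_mul]
    refine congrArg ProjGenLinGroup.mk (Units.ext ?_)
    show (v : Matrix (Fin 2) (Fin 2) F) * S = (v : Matrix (Fin 2) (Fin 2) F) * S *
      ((v⁻¹ : GL (Fin 2) F) : Matrix (Fin 2) (Fin 2) F) * (v : Matrix (Fin 2) (Fin 2) F)
    rw [Units.inv_mul_cancel_right]
  have rσx : σ * x = x * σ := by
    rw [hx']
    exact hσconj (by rw [hX, ← mul_assoc, hga, mul_assoc b, hgb, ← mul_assoc, h.ba])
  have rσz : σ * z = x * z * σ := by
    rw [ry, hz']
    exact hσconj (by rw [hZ, hY, ← mul_assoc, hgc, mul_assoc c, hga, ← mul_assoc, h.cb])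
  let K := Subgroup.closure ((H : Set PGL(2, F)) ∪ {σ})
  have hHK : H ≤ K := fun k hk => Subgroup.subset_closure (Or.inl hk)
  have hσK : σ ∈ K := Subgroup.subset_closure (Or.inr rfl)
  have hKN : ∀ k ∈ K, ∀ y ∈ H, k * y * k⁻¹ ∈ H := by
    have hle : K ≤ Subgroup.normalizer (H : Set PGL(2, F)) := by
      refine (Subgroup.closure_le _).2 ?_
      rintro k (hk | rfl)
      · exact Subgroup.le_normalizer hk
      · refine Subgroup.mem_normalizer_iff_map_conj_eq.2 (Subgroup.eq_of_le_of_card_ge ?_ ?_)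
        · rintro _ ⟨y, hy, rfl⟩
          exact hσH y hy
        · exact le_of_eq (Subgroup.card_map_of_injective (MulEquiv.injective _)).symm
    exact fun k hk y hy => (Subgroup.mem_normalizer_iff.1 (hle hk) y).1 hy
  have hσn : σ ∉ H := by
    intro hs
    refine five_no_swap (e ⟨x, hxH⟩) (e ⟨z, hzH⟩) (e ⟨σ, hs⟩) ?_ ?_ ?_ ?_ ?_ ?_
    · rw [← map_mul, show (⟨x, hxH⟩ : H) * ⟨x, hxH⟩ = 1 from Subtype.ext rxx, map_one]
    · rw [← map_mul, show (⟨z, hzH⟩ : H) * ⟨z, hzH⟩ = 1 from Subtype.ext rzz, map_one]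
    · rw [← map_mul, ← map_mul]; exact congrArg e (Subtype.ext rcomm)
    · exact fun he => hx1 (congrArg Subtype.val (e.injective (he.trans (map_one e).symm)))
    · rw [← map_mul, ← map_mul]; exact congrArg e (Subtype.ext rσx)
    · rw [← map_mul, ← map_mul, ← map_mul]; exact congrArg e (Subtype.ext rσz)
  have hgt : 60 < Nat.card K := by
    refine lt_of_le_of_ne (h60 ▸ Subgroup.card_le_of_le hHK) fun e60 => hσn ?_
    rw [Subgroup.eq_of_le_of_card_ge hHK (by omega)]
    exact hσK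
  rcases platonic_or_full hF K (hHK hxH) (hHK hzH) (hHK huH) rcomm hxnz ru3 rux hfix with
    ⟨h1 | h1, -⟩ | ⟨h1, -⟩ | hle
  · omega
  · omega
  · omega
  have hcard4 : 4 ≤ Nat.card F := by
    rw [Nat.card_eq_fintype_card]
    by_contra hlt
    have hpp := (Fact.out : p.Prime).two_le
    have hp2 : p ≠ 2 := fun e => h2 (by
      have h0 := CharP.cast_eq_zero F p
      rw [e] at h0; exact_mod_cast h0)
    have h12 : Nat.card H ≤ Nat.card PGL(2, F) := Subgroup.card_le_card_group H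
    have hp3 : p = 3 := by omega
    subst hp3
    have hGL : Nat.card PGL(2, F) ≤ Nat.card (GL (Fin 2) F) :=
      Nat.card_le_card_of_surjective _ ProjGenLinGroup.mk_surjective
    rw [Matrix.card_GL_field] at hGL
    simp [Fin.prod_univ_two, hF] at hGL
    omega
  have hsimple : IsSimpleGroup (lsub F) :=
    (pslEquiv (F := F)).symm.isSimpleGroup_congr.2 (Linear.isSimpleGroup_PSL_fin 2 le_rfl fun _ => hcard4)
  have hnorm : (H.subgroupOf (lsub F)).Normal := ⟨fun y hy k => hKN k (hle k.2) y hy⟩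
  rcases hsimple.eq_bot_or_eq_top_of_normal _ hnorm with h0 | h0
  · have hxl : x ∈ lsub F := hx' ▸ pr_mem_lsub X
    have : (⟨x, hxl⟩ : lsub F) ∈ H.subgroupOf (lsub F) := hxH
    rw [h0, Subgroup.mem_bot] at this
    exact absurd (congrArg Subtype.val this) hx1
  · exact full (Subgroup.subgroupOf_eq_top.1 h0)

end Cfsg.Agent.GeoLow.C6
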